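/- C7 tower, slot GFSP: facts on the symplectic group of one factor. -/
import Cfsg.Agent.H60.WrSpec
import Cfsg.Agent.H19.AschConv
import Cfsg.Agent.H62.SpTv
import Cfsg.Agent.H54.SpSimple

set_option autoImplicit false

namespace H73.WrSp
open Cfsg Cfsg.Geo Matrix H19 H60.Wr Module
open scoped MatrixGroups commutatorElement

universe u

variable {F : Type*} [Field F] {k : ℕ} (B : Frm (Fin k) F)

theorem rf_mulVec (x y z : Fin k → F) : rf B x y *ᵥ z = B.f z y • x := by
  rw [B.eq_dot, dotProduct_comm]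
  ext i
  simp [rf, ro, ph, vecMulVec_mulVec, mul_comm]

theorem in_iso {X : Mk k F} (h : ∀ u v, B.f (X *ᵥ u) (X *ᵥ v) = B.f u v) : In B.Iso X := by
  have hu : IsUnit X := by
    rw [← Matrix.mulVec_injective_iff_isUnit]
    refine (injective_iff_map_eq_zero (Matrix.mulVecLin X)).2 fun v hv => ?_
    refine B.nondeg v fun x => ?_
    have hv' : X *ᵥ v = 0 := hv
    rw [← h, hv', B.zero_right]
  exact ⟨hu.unit, h, rfl⟩

/-- The isometry group of `B` as a group of linear automorphisms. -/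
noncomputable def isoEquiv (hσ : B.σ = RingEquiv.refl F) : B.Iso ≃* H54.Isom (B.toBilin hσ) where
  toFun g := ⟨LinearMap.GeneralLinearGroup.generalLinearEquiv F _
    (Matrix.GeneralLinearGroup.toLin g.1), g.2⟩
  invFun e := ⟨Matrix.GeneralLinearGroup.toLin.symm
    ((LinearMap.GeneralLinearGroup.generalLinearEquiv F _).symm e.1), fun u v => by
      have h : ∀ w, ((Matrix.GeneralLinearGroup.toLin.symm
          ((LinearMap.GeneralLinearGroup.generalLinearEquiv F _).symm e.1) : GL (Fin k) F) :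
          Mk k F) *ᵥ w = e.1 w := fun w => LinearMap.toMatrix'_mulVec _ _
      change B.f (_ *ᵥ u) (_ *ᵥ v) = _
      erw [h, h]
      exact e.2 u v⟩
  left_inv g := Subtype.ext (by simp)
  right_inv e := Subtype.ext (by simp)
  map_mul' a b := Subtype.ext (by simp)

theorem isoEquiv_smul (hσ : B.σ = RingEquiv.refl F) (g : B.Iso) (v : Fin k → F) :
    isoEquiv B hσ g • v = ((g : GL (Fin k) F) : Mk k F) *ᵥ v := rfl

theorem swap (hσ : ∀ a, B.σ a = a) (hε : B.ε = -1) (u v : Fin k → F) : B.f v u = -B.f u v := by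
  rw [B.symm, hσ, hε, neg_one_mul]

theorem exists_one (hσ : ∀ a, B.σ a = a) {w : Fin k → F} (hw : w ≠ 0) : ∃ w', B.f w w' = 1 := by
  obtain ⟨x, hx⟩ : ∃ x, B.f w x ≠ 0 := by
    by_contra! h
    exact hw (B.nondeg' w h)
  exact ⟨(B.f w x)⁻¹ • x, by rw [B.smul_right, hσ, inv_mul_cancel₀ hx]⟩

theorem exists_perp (hk : 3 ≤ k) (x y : Fin k → F) : ∃ z, z ≠ 0 ∧ B.f z x = 0 ∧ B.f z y = 0 := by
  have h := LinearMap.finrank_range_add_finrank_ker ((B.left x).prod (B.left y))
  have h1 := Submodule.finrank_le (LinearMap.range ((B.left x).prod (B.left y)))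
  simp only [finrank_prod, finrank_self, finrank_fintype_fun_eq_card, Fintype.card_fin] at h h1
  obtain ⟨z, hz, hz0⟩ := Submodule.exists_mem_ne_zero_of_ne_bot
    (p := LinearMap.ker ((B.left x).prod (B.left y))) (by
      intro h0
      rw [h0, finrank_bot] at h
      omega)
  have := LinearMap.mem_ker.1 hz
  exact ⟨z, hz0, congrArg Prod.fst this, congrArg Prod.snd this⟩

theorem gf (hσ : ∀ a, B.σ a = a) (ha : ∀ v, B.f v v = 0) (hε : B.ε = -1) (hk : 0 < k) :
    GF B B.Iso where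
  iso := le_rfl
  ex := ⟨Pi.single ⟨0, hk⟩ 1, by simp, ha _⟩
  tr x hx y hy := by
    have hσ' : B.σ = RingEquiv.refl F := RingEquiv.ext hσ
    obtain ⟨h, hh⟩ := H54.isom_witt (B := B.toBilin hσ') ⟨B.nondeg', B.nondeg⟩ ha
      (fun _ : Unit => x) (fun _ => y) (linearIndependent_unique_iff.2 hx.1)
      (linearIndependent_unique_iff.2 hy.1) (fun _ _ => (ha x).trans (ha y).symm)
    obtain ⟨g, rfl⟩ := (isoEquiv B hσ').surjective h
    exact ⟨g, g.2, hh ()⟩
  eich w v _ hvw := ⟨0, in_iso B fun a b => by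
    have hwv : B.f w v = 0 := B.eq_zero_comm.1 hvw
    simp only [hε, zero_smul, sub_zero, neg_smul, one_smul, sub_neg_eq_add, add_mulVec,
      one_mulVec, rf_mulVec, B.add_left, B.add_right, B.smul_left, B.smul_right, hσ, ha, hvw, hwv]
    rw [swap B hσ hε b w, swap B hσ hε b v]
    ring⟩
  hyp w hw := by
    obtain ⟨w', h⟩ := exists_one B hσ hw.1
    exact ⟨w', ⟨by rintro rfl; simp at h, ha _⟩, h⟩
  av u v hu hv := by
    obtain ⟨x, hx⟩ := exists_one B hσ hu
    obtain ⟨y, hy⟩ := exists_one B hσ hv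
    have key : ∀ z, B.f u z ≠ 0 → B.f v z ≠ 0 → ∃ y ∈ IsoV B, B.f u y ≠ 0 ∧ B.f v y ≠ 0 :=
      fun z h1 h2 => ⟨z, ⟨by rintro rfl; simp at h1, ha _⟩, h1, h2⟩
    by_cases h1 : B.f v x = 0
    · by_cases h2 : B.f u y = 0
      · exact key (x + y) (by simp [B.add_right, hx, h2]) (by simp [B.add_right, hy, h1])
      · exact key y h2 (by simp [hy])
    · exact key x (by simp [hx]) h1
  sp u hu := by
    obtain ⟨x, hx⟩ := exists_one B hσ hu
    have key : ∀ z, B.f u z ≠ 0 → z ∈ Submodule.span F {y | y ∈ IsoV B ∧ B.f u y ≠ 0} :=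
      fun z h => Submodule.subset_span ⟨⟨by rintro rfl; simp at h, ha _⟩, h⟩
    rw [eq_top_iff]
    intro y _
    by_cases h : B.f u y = 0
    · have := Submodule.sub_mem _ (key (y + x) (by simp [B.add_right, hx, h]))
        (key x (by simp [hx]))
      simpa using this
    · exact key y h

theorem gf2 (hσ : ∀ a, B.σ a = a) (ha : ∀ v, B.f v v = 0) (hε : B.ε = -1) (hk : 4 ≤ k) :
    GF2 B where
  pp w hw y hy := by
    have key : ∀ z, B.f z w = 0 → z ∉ F ∙ w →
        z ∈ Submodule.span F {y | y ∈ IsoV B ∧ B.f y w = 0 ∧ y ∉ F ∙ w} :=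
      fun z h1 h2 => Submodule.subset_span
        ⟨⟨by rintro rfl; exact h2 (Submodule.zero_mem _), ha _⟩, h1, h2⟩
    have hy' : B.f y w = 0 := hy
    by_cases h : y ∈ F ∙ w
    · obtain ⟨w', hw'⟩ := exists_one B hσ hw.1
      obtain ⟨z, hz0, hz1, hz2⟩ := exists_perp B (by omega) w w'
      have hz : z ∉ F ∙ w := fun hz => by
        obtain ⟨c, rfl⟩ := Submodule.mem_span_singleton.1 hz
        rw [B.smul_left, hw', mul_one] at hz2
        exact hz0 (by rw [hz2, zero_smul])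
      have := Submodule.sub_mem _ (key (y + z) (by rw [B.add_left, hy', hz1, add_zero])
        fun h' => hz (by simpa using Submodule.sub_mem _ h' h)) (key z hz1 hz)
      simpa using this
    · exact key y hy' h
  two x _ y _ := by
    obtain ⟨z, hz0, hz1, hz2⟩ := exists_perp B (by omega) x y
    exact ⟨z, ⟨hz0, ha _⟩, hz1, hz2⟩
  opp x _ y _ _ hxy := by
    have hσ' : B.σ = RingEquiv.refl F := RingEquiv.ext hσ
    obtain ⟨z, h1, h2⟩ := H62.exists_form_pair (B := B.toBilin hσ') ⟨B.nondeg', B.nondeg⟩ ha hxy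
    have h1' : B.f z x = 1 := h1
    have h2' : B.f z y = 0 := h2
    refine ⟨-z, ⟨?_, ha _⟩, ?_, ?_⟩
    · rw [neg_ne_zero]
      rintro rfl
      simp at h1'
    · rw [B.neg_right, swap B hσ hε, h1', neg_neg]
    · rw [B.neg_right, swap B hσ hε, h2', neg_neg]

theorem tv (hσ : ∀ a, B.σ a = a) (ha : ∀ v, B.f v v = 0) (hε : B.ε = -1) (x : Fin k → F) (c : F) :
    In B.Iso (1 + c • rf B x x) := in_iso B fun a b => by
  simp only [add_mulVec, one_mulVec, smul_mulVec, rf_mulVec, B.add_left, B.add_right, B.smul_left,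
    B.smul_right, hσ, ha]
  rw [swap B hσ hε b x]
  ring

theorem perfect (hσ : ∀ a, B.σ a = a) (ha : ∀ v, B.f v v = 0)
    (h : 6 ≤ k ∨ (4 ≤ k ∧ (2 : F) ≠ 0) ∨ ∃ a : F, a ≠ 0 ∧ a ^ 2 ≠ 1) :
    B.Iso ≤ ⁅B.Iso, B.Iso⁆ := by
  have hσ' : B.σ = RingEquiv.refl F := RingEquiv.ext hσ
  obtain ⟨m, hm⟩ := B.even_of_alt hσ' ha
  rw [Fintype.card_fin] at hm
  obtain ⟨e⟩ := H54.nonempty_isom_equiv_sp (B := B.toBilin hσ') ⟨B.nondeg', B.nondeg⟩ ha (Fin m)
    (by simp [hm, two_mul])
  have h1 : commutator (Matrix.symplecticGroup (Fin m) F) = ⊤ := by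
    rcases h with h | ⟨h, h2⟩ | h
    · exact H54.sp_commutator_eq_top_of_three (by rw [Fintype.card_fin]; omega)
    · haveI : Nontrivial (Fin m) := Fin.nontrivial_iff_two_le.2 (by omega)
      exact H54.sp_commutator_eq_top_of_two ⟨1, one_ne_zero, fun h => h2 (by linear_combination h)⟩
    · exact H54.sp_commutator_eq_top_of_sq h
  have e' := ((isoEquiv B hσ').trans e).symm
  have h2 : commutator B.Iso = ⊤ := by
    have := Subgroup.map_commutator (⊤ : Subgroup (Matrix.symplecticGroup (Fin m) F)) ⊤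
      e'.toMonoidHom
    rw [← commutator_def, h1, Subgroup.map_top_of_surjective _ e'.surjective] at this
    exact this.symm
  have := Subgroup.map_commutator (⊤ : Subgroup B.Iso) ⊤ B.Iso.subtype
  rw [← commutator_def, h2, ← MonoidHom.range_eq_map, Subgroup.range_subtype] at this
  exact this.le

theorem jobGFSp : JobGFSp.{u} := fun _ _ _ _ B hσ ha hε hk =>
  ⟨gf B hσ ha hε hk, gf2 B hσ ha hε, tv B hσ ha hε, perfect B hσ ha⟩

end H73.WrSp
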