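/- C7 tower, slot GFO: facts on the orthogonal group of one factor. -/
import Cfsg.Agent.H73.WrGFSp
import Cfsg.Agent.H60.Bridge
import Cfsg.Agent.H60.EO

set_option autoImplicit false

namespace H73.WrO
open Cfsg Cfsg.Geo Matrix H19 H60.Wr Module H56 H60 QuadraticMap
open scoped MatrixGroups commutatorElement

universe u

variable {F : Type*} [Field F] {k : ℕ} (B : Frm (Fin k) F)

theorem exists_quad (hσ : ∀ a, B.σ a = a) (hε : B.ε = 1) (h2 : (2 : F) ≠ 0) :
    ∃ Q : QuadraticForm F (Fin k → F), (∀ u v, polar Q u v = B.f u v) ∧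
      ∀ v, B.f v v = 0 ↔ Q v = 0 := by
  have hσ' : B.σ = RingEquiv.refl F := RingEquiv.ext hσ
  have h : ∀ v, ((2 : F)⁻¹ • LinearMap.BilinMap.toQuadraticMap (B.toBilin hσ')) v =
      2⁻¹ * B.f v v := fun v => rfl
  refine ⟨(2 : F)⁻¹ • LinearMap.BilinMap.toQuadraticMap (B.toBilin hσ'), fun u v => ?_,
    fun v => by simp [h, h2]⟩
  rw [polar, h, h, h, B.add_left, B.add_right, B.add_right, B.symm u v, hε, hσ]
  field_simp
  ring

section
variable {V : Type*} [AddCommGroup V] [Module F V] [FiniteDimensional F V] [Finite F]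
  {Q : QuadraticForm F V}

theorem span_sing (hQ : Q.polarBilin.Nondegenerate) (h2 : (2 : F) ≠ 0) (h5 : 5 ≤ finrank F V)
    {u : V} (hu : u ≠ 0) :
    Submodule.span F {y | (y ≠ 0 ∧ Q y = 0) ∧ polar Q u y ≠ 0} = ⊤ := by
  have hT := nondeg_top hQ
  have hH : HasHyp Q ⊤ := hT.hasHyp (by rw [finrank_top]; omega)
  obtain ⟨x₀, -, hx₀⟩ := hT.exists_polar_ne (x := u) trivial hu
  obtain ⟨x, -, hQx, hux⟩ := hH.exists_sing_polar_ne trivial hx₀
  have key : ∀ z, Q z = 0 → polar Q u z ≠ 0 →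
      z ∈ Submodule.span F {y | (y ≠ 0 ∧ Q y = 0) ∧ polar Q u y ≠ 0} :=
    fun z h1 h => Submodule.subset_span ⟨⟨by rintro rfl; simp at h, h1⟩, h⟩
  rw [eq_top_iff]
  refine hH.le_of_sing fun y _ hQy => ?_
  by_cases huy : polar Q u y = 0
  swap
  · exact key y hQy huy
  by_cases hxy : polar Q x y = 0
  · have := Submodule.sub_mem _ (key (x + y) (by rw [Q_add, hQx, hQy, hxy]; simp)
      (by simpa [huy] using hux)) (key x hQx hux)
    simpa using this
  have hN := hT.inf_ort_pair (e := x) (f := (polar Q x y)⁻¹ • y) trivial trivial hQx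
    (by simp [Q_smul, hQy]) (by simp [hxy])
  set W := (⊤ : Submodule F V) ⊓ ort Q x ⊓ ort Q ((polar Q x y)⁻¹ • y) with hW
  have d1 := finrank_le_inf_ort (Q := Q) (⊤ : Submodule F V) x
  have d2 := finrank_le_inf_ort (Q := Q) ((⊤ : Submodule F V) ⊓ ort Q x) ((polar Q x y)⁻¹ • y)
  have d3 := finrank_le_inf_ort (Q := Q) W u
  rw [finrank_top] at d1
  rw [← hW] at d2
  obtain ⟨z, ⟨⟨⟨-, hz1⟩, hz2⟩, hz3⟩, hQz⟩ := hN.exists_Q_ne_of_lt hQ
    (W := W ⊓ ort Q u) inf_le_left (by omega)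
  have hxz : polar Q x z = 0 := hz1
  have hyz : polar Q y z = 0 := by simpa [hxy] using hz2
  have huz : polar Q u z = 0 := hz3
  have hk : ∀ z', Q z' = Q z → polar Q x z' = 0 → polar Q y z' = 0 → polar Q u z' = 0 →
      x + z' - (Q z / polar Q x y) • y ∈
        Submodule.span F {y | (y ≠ 0 ∧ Q y = 0) ∧ polar Q u y ≠ 0} := fun z' h1 h3 h4 h5 => by
    refine key _ ?_ (by simpa [huy, h5] using hux)
    rw [Q_sub, Q_add, Q_smul, hQx, hQy, h1, h3, polar_smul_right, polar_add_left, pc h4]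
    simp only [smul_eq_mul]
    field_simp
    ring
  have h1 := Submodule.sub_mem _ (Submodule.smul_mem _ (2 : F) (key x hQx hux))
    (Submodule.add_mem _ (hk z rfl hxz hyz huz)
      (hk (-z) (by simp) (by simp [hxz]) (by simp [hyz]) (by simp [huz])))
  have h3 : (2 : F) • x - (x + z - (Q z / polar Q x y) • y + (x + -z - (Q z / polar Q x y) • y)) =
      (2 * (Q z / polar Q x y)) • y := by module
  rw [h3] at h1
  exact (Submodule.smul_mem_iff _ (mul_ne_zero h2 (div_ne_zero hQz hxy))).1 h1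

theorem ort_le_span (hQ : Q.polarBilin.Nondegenerate) (h5 : 5 ≤ finrank F V) {w : V}
    (hw : Q w = 0) :
    ort Q w ≤ Submodule.span F {y | (y ≠ 0 ∧ Q y = 0) ∧ polar Q y w = 0 ∧ y ∉ F ∙ w} := by
  have d1 := finrank_le_inf_ort (Q := Q) (⊤ : Submodule F V) w
  rw [finrank_top, top_inf_eq] at d1
  have hH : HasHyp Q (ort Q w) := (nondeg_top hQ).hasHyp_of_le hQ le_top (by
    rw [finrank_top]; omega)
  have key : ∀ z, Q z = 0 → polar Q w z = 0 → z ∉ F ∙ w →
      z ∈ Submodule.span F {y | (y ≠ 0 ∧ Q y = 0) ∧ polar Q y w = 0 ∧ y ∉ F ∙ w} :=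
    fun z h1 h2 h3 => Submodule.subset_span
      ⟨⟨by rintro rfl; exact h3 (Submodule.zero_mem _), h1⟩, pc h2, h3⟩
  refine hH.le_of_sing fun y hy hQy => ?_
  by_cases h : y ∈ F ∙ w
  swap
  · exact key y hQy hy h
  obtain ⟨z, hz, hQz, hzw⟩ := hH.exists_sing_not_mem (T := F ∙ w) fun hle => by
    have := Submodule.finrank_mono hle
    have := finrank_span_singleton_le (F := F) w
    omega
  have hz' : polar Q w z = 0 := hz
  have := Submodule.sub_mem _ (key (y + z) ?_ (by rw [polar_add_right, hz', add_zero]; exact hy)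
    fun h' => hzw (by simpa using Submodule.sub_mem _ h' h)) (key z hQz hz hzw)
  · simpa using this
  · obtain ⟨c, rfl⟩ := Submodule.mem_span_singleton.1 h
    rw [Q_add, hQy, hQz, polar_smul_left, hz']
    simp

end

theorem jobGFO : JobGFO.{u} := by
  intro F _ _ k B Γ hσ hε h2 hk hΓ hc
  obtain ⟨Q, hp, hs⟩ := exists_quad B hσ hε h2
  have hQ : Q.polarBilin.Nondegenerate :=
    nondegenerate_of_polar fun x hx => B.nondeg' x fun y => by rw [← hp, hx]
  have h5 : 5 ≤ finrank F (Fin k → F) := by simpa using hk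
  have hT := nondeg_top hQ
  have hI : IsoV B = {y | y ≠ 0 ∧ Q y = 0} := Set.ext fun y => and_congr_right fun _ => hs y
  have hm : ∀ g ∈ commutator (O Q), toGL Q g ∈ Γ := fun g hg => by
    have h1 : (⊤ : Subgroup (O Q)).map (toGL Q) ≤ B.Iso := by
      rintro _ ⟨g, -, rfl⟩ u v
      change B.f (((toGL Q g : GL (Fin k) F) : Mk k F) *ᵥ u)
        (((toGL Q g : GL (Fin k) F) : Mk k F) *ᵥ v) = _
      rw [toGL_mulVec, toGL_mulVec, ← hp, ← hp, O.map_polar]
    refine hc (Subgroup.commutator_mono h1 h1 ?_)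
    rw [← Subgroup.map_commutator]
    exact Subgroup.mem_map_of_mem _ hg
  have hsp : ∀ u, u ≠ 0 → Submodule.span F {y | y ∈ IsoV B ∧ B.f u y ≠ 0} = ⊤ := fun u hu => by
    simpa only [hI, ← hp, Set.mem_setOf_eq] using span_sing hQ h2 h5 hu
  refine ⟨⟨hΓ, ?_, ?_, ?_, ?_, ?_, hsp⟩, ⟨?_, ?_, ?_⟩⟩
  · obtain ⟨x, -, h0, hx⟩ := exists_sing (Q := Q) ⊤ (by rw [finrank_top]; omega)
    exact ⟨x, h0, (hs x).2 hx⟩
  · intro x hx y hy
    obtain ⟨g, hg, hxy⟩ := exists_EOin_apply_eq hQ hT (by rwa [finrank_top]) (a := x) (b := y)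
      trivial trivial hx.1 hy.1 (((hs x).1 hx.2).trans ((hs y).1 hy.2).symm)
    exact ⟨_, hm g (EOin_le_commutator hQ h5 _ hg), by rw [toGL_mulVec, hxy]⟩
  · intro w v hw hvw
    refine ⟨Q v, _, hm _ (H60.eich_mem_commutator hQ h5 w v), matrix_ext_mulVec fun x => ?_⟩
    rw [toGL_mulVec, eich_apply ((hs w).1 hw) (pc (by rwa [hp]))]
    simp only [hε, one_smul, sub_mulVec, add_mulVec, one_mulVec, smul_mulVec, WrSp.rf_mulVec, ← hp,
      smul_smul, polar_comm Q x]
  · intro w hw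
    obtain ⟨z, -, h1, h3⟩ := hT.exists_partner (x := w) trivial hw.1 ((hs w).1 hw.2)
    exact ⟨z, ⟨by rintro rfl; simp at h3, (hs z).2 h1⟩, by rwa [← hp]⟩
  · intro u v hu hv
    by_contra! h
    refine hv (B.nondeg' v fun x => ?_)
    have : Submodule.span F {y | y ∈ IsoV B ∧ B.f u y ≠ 0} ≤ ort Q v :=
      Submodule.span_le.2 fun y hy => by
        change polar Q v y = 0
        rw [hp]
        exact h y hy.1 hy.2
    rw [hsp u hu] at this
    rw [← hp]
    exact this (Submodule.mem_top (x := x))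
  · intro w hw y hy
    have := ort_le_span hQ h5 ((hs w).1 hw.2) (x := y) (pc (by rw [hp]; exact hy))
    simpa only [hI, ← hp, Set.mem_setOf_eq] using this
  · intro x _ y _
    have d1 := finrank_le_inf_ort (Q := Q) (⊤ : Submodule F (Fin k → F)) x
    have d2 := finrank_le_inf_ort (Q := Q) ((⊤ : Submodule F (Fin k → F)) ⊓ ort Q x) y
    rw [finrank_top] at d1
    obtain ⟨z, ⟨⟨-, h1⟩, h3⟩, h0, hz⟩ := exists_sing (Q := Q) (⊤ ⊓ ort Q x ⊓ ort Q y) (by omega)
    exact ⟨z, ⟨h0, (hs z).2 hz⟩, by rw [← hp]; exact pc h1, by rw [← hp]; exact pc h3⟩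
  · intro x hx y _ hxy hn
    obtain ⟨z, hz, hxz⟩ : ∃ z ∈ ort Q y, polar Q x z ≠ 0 := by
      by_contra! h
      obtain ⟨c, rfl⟩ := hT.exists_smul (x := y) (z := x) trivial trivial fun v _ hv => h v hv
      exact hn (Submodule.smul_mem _ _ (Submodule.mem_span_singleton_self y))
    obtain ⟨x', h1, h3, h4⟩ := exists_partner (U := ort Q y) (x := x)
      (pc (by rwa [hp])) ((hs x).1 hx.2) hz hxz
    exact ⟨x', ⟨by rintro rfl; simp at h4, (hs _).2 h3⟩, by rwa [← hp], by rw [← hp]; exact h1⟩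

end H73.WrO
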