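/- C7 tower, slot EVEN, part 1: the dihedral lemma and `JobPair`. -/
import Cfsg.Agent.H60.WrSpec

set_option autoImplicit false

namespace H73.WrE
open Cfsg Cfsg.Geo Matrix H19 H60.Wr Module
open scoped MatrixGroups

universe u

section ring
variable {R : Type*} [Ring R]

/-- The half sum of the powers of `ρ`. -/
def hs (ρ : Rˣ) (m : ℕ) : R := ∑ j ∈ Finset.range m, ((ρ ^ (j + 1) : Rˣ) : R)

/-- The averaging idempotent of `ρ`. -/
def av (ρ : Rˣ) (m : ℕ) : R := 1 + hs ρ m + hs ρ⁻¹ m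

theorem sub_mul_av (ρ : Rˣ) (m : ℕ) :
    ((ρ : R) - 1) * av ρ m = ((ρ ^ (m + 1) : Rˣ) : R) - ((ρ⁻¹ ^ m : Rˣ) : R) := by
  induction m with
  | zero => simp [av, hs]
  | succ m ih =>
    have h1 : av ρ (m + 1) = av ρ m + ((ρ ^ (m + 1) : Rˣ) : R) + ((ρ⁻¹ ^ (m + 1) : Rˣ) : R) := by
      simp only [av, hs, Finset.sum_range_succ]; abel
    have h2 : (ρ : R) * ((ρ⁻¹ ^ (m + 1) : Rˣ) : R) = ((ρ⁻¹ ^ m : Rˣ) : R) := by
      rw [← Units.val_mul, pow_succ', mul_inv_cancel_left]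
    have h3 : (ρ : R) * ((ρ ^ (m + 1) : Rˣ) : R) = ((ρ ^ (m + 1 + 1) : Rˣ) : R) := by
      rw [← Units.val_mul, ← pow_succ']
    rw [h1, mul_add, mul_add, ih, sub_mul, sub_mul, h2, h3, one_mul, one_mul]
    abel

theorem mul_av {ρ : Rˣ} {m : ℕ} (h : ρ ^ (2 * m + 1) = 1) : (ρ : R) * av ρ m = av ρ m := by
  have h1 : ρ ^ (m + 1) = ρ⁻¹ ^ m := by
    rw [inv_pow, eq_inv_iff_mul_eq_one, ← pow_add, ← h]; congr 1; ring
  have := sub_mul_av ρ m
  rwa [h1, sub_self, sub_mul, one_mul, sub_eq_zero] at this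

theorem hs_conj {ρ ρ' τ : Rˣ} (h : τ * ρ = ρ' * τ) (m : ℕ) : (τ : R) * hs ρ m = hs ρ' m * τ := by
  simp only [hs, Finset.mul_sum, Finset.sum_mul, ← Units.val_mul]
  exact Finset.sum_congr rfl fun j _ => congrArg _ (SemiconjBy.pow_right h (j + 1))

theorem av_comm {ρ τ : Rˣ} (h : τ * ρ = ρ⁻¹ * τ) (m : ℕ) : (τ : R) * av ρ m = av ρ m * τ := by
  have h' : τ * ρ⁻¹ = ρ * τ := by
    have := (SemiconjBy.inv_right h).eq
    rwa [inv_inv] at this
  rw [av, mul_add, mul_add, hs_conj h, hs_conj h', add_mul, add_mul, mul_one, one_mul]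
  abel

theorem av_mul {ρ : Rˣ} {m : ℕ} (h : ρ ^ (2 * m + 1) = 1) : av ρ m * (ρ : R) = av ρ m := by
  have h1 : (ρ : R) * av ρ m = av ρ m * ρ := by
    rw [av, mul_add, mul_add, hs_conj (ρ' := ρ) rfl, hs_conj (ρ := ρ⁻¹) (ρ' := ρ⁻¹) (by simp),
      add_mul, add_mul, mul_one, one_mul]
  rw [← h1, mul_av h]

end ring

variable {F : Type*} [Field F] {ι : Type} [Fintype ι] [DecidableEq ι]

theorem add_self' (h2 : (2 : F) = 0) {A : Type*} [AddCommGroup A] [Module F A] (v : A) :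
    v + v = 0 := by rw [← two_smul F, h2, zero_smul]

theorem inv_sq (h2 : (2 : F) = 0) {N : Matrix ι ι F} {x : GL ι F} (hN : N * N = 0)
    (hx : (x : Matrix ι ι F) = 1 + N) : x * x = 1 := by
  apply Units.ext
  rw [Units.val_mul, hx, mul_add, add_mul, add_mul, hN]
  simp [add_assoc, add_self' h2]

/-- On the kernel of `N` the complementary idempotent maps into the image of `N`. -/
theorem av_ker (h2 : (2 : F) = 0) {N : Matrix ι ι F} {τ ρ : GL ι F}
    (hτ : (τ : Matrix ι ι F) = 1 + N) (h : τ * ρ = ρ⁻¹ * τ) (m : ℕ) {v : ι → F}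
    (hv : N *ᵥ v = 0) : v = av ρ m *ᵥ v + N *ᵥ (hs ρ m *ᵥ v) := by
  have h1 : hs ρ⁻¹ m *ᵥ v = hs ρ m *ᵥ v + N *ᵥ (hs ρ m *ᵥ v) := by
    have := congrArg (· *ᵥ v) (hs_conj h m)
    simp only [hτ, ← mulVec_mulVec, add_mulVec, one_mulVec, hv, add_zero] at this
    exact this.symm
  rw [av, add_mulVec, add_mulVec, one_mulVec, h1]
  have h3 := add_self' h2 (hs ρ m *ᵥ v)
  have h4 := add_self' h2 (N *ᵥ (hs ρ m *ᵥ v))
  linear_combination (exp := 1) -h3 - h4

theorem av_fix (h2 : (2 : F) = 0) {ρ : GL ι F} (m : ℕ) {v : ι → F}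
    (hv : (ρ : Matrix ι ι F) *ᵥ v = v) : av ρ m *ᵥ v = v := by
  have key : ∀ σ : GL ι F, (σ : Matrix ι ι F) *ᵥ v = v → hs σ m *ᵥ v = m • v := fun σ hσ => by
    have : ∀ j, ((σ ^ j : GL ι F) : Matrix ι ι F) *ᵥ v = v := fun j => by
      induction j with
      | zero => simp
      | succ j ih => rw [pow_succ, Units.val_mul, ← mulVec_mulVec, hσ, ih]
    simp only [hs, sum_mulVec, this, Finset.sum_const, Finset.card_range]
  have hv' : ((ρ⁻¹ : GL ι F) : Matrix ι ι F) *ᵥ v = v := by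
    conv_lhs => rw [← hv]
    rw [inv_mulVec_mulVec]
  rw [av, add_mulVec, add_mulVec, one_mulVec, key ρ hv, key _ hv', add_assoc, add_self' h2,
    add_zero]

theorem N_av {N : Matrix ι ι F} {τ ρ : GL ι F} (hτ : (τ : Matrix ι ι F) = 1 + N)
    (h : τ * ρ = ρ⁻¹ * τ) (m : ℕ) : N * av ρ m = av ρ m * N := by
  have := av_comm h m
  rwa [hτ, add_mul, mul_add, one_mul, mul_one, add_right_inj] at this

theorem N_av_eq {N N' : Matrix ι ι F} {x x' : GL ι F} (hx : (x : Matrix ι ι F) = 1 + N)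
    (hx' : (x' : Matrix ι ι F) = 1 + N') (h1 : x * x = 1) {m : ℕ}
    (h : (x * x') ^ (2 * m + 1) = 1) : N' * av (x * x') m = N * av (x * x') m := by
  have := congrArg ((x : Matrix ι ι F) * ·) (mul_av h)
  simp only [← mul_assoc, ← Units.val_mul, h1, one_mul] at this
  rwa [hx, hx', add_mul, add_mul, add_right_inj] at this

theorem inv_left {G : Type*} [Group G] {x x' : G} (h1 : x * x = 1) (h2 : x' * x' = 1) :
    x * (x * x') = (x * x')⁻¹ * x := by
  rw [_root_.mul_inv_rev, inv_eq_of_mul_eq_one_right h1, inv_eq_of_mul_eq_one_right h2, ← mul_assoc, h1,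
    mul_assoc, h1, mul_one, one_mul]

theorem inv_right {G : Type*} [Group G] {x x' : G} (h1 : x * x = 1) (h2 : x' * x' = 1) :
    x' * (x * x') = (x * x')⁻¹ * x' := by
  rw [_root_.mul_inv_rev, inv_eq_of_mul_eq_one_right h1, inv_eq_of_mul_eq_one_right h2, mul_assoc]

theorem pair_inf (h2 : (2 : F) = 0) {N N' : Matrix ι ι F} {x x' : GL ι F} (hN : N * N = 0)
    (hN' : N' * N' = 0) (hx : (x : Matrix ι ι F) = 1 + N) (hx' : (x' : Matrix ι ι F) = 1 + N')
    {m : ℕ} (h : (x * x') ^ (2 * m + 1) = 1) : rg N' ⊓ kn N ≤ rg N := by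
  rintro _ ⟨⟨a, rfl⟩, hv⟩
  have h1 := inv_sq h2 hN hx
  have h3 := inv_sq h2 hN' hx'
  have hv1 : N *ᵥ (N' *ᵥ a) = 0 := hv
  have hv2 : N' *ᵥ (N' *ᵥ a) = 0 := by rw [mulVec_mulVec, hN', zero_mulVec]
  have := av_fix h2 m (ρ := x * x') (v := N' *ᵥ a) (by
    rw [Units.val_mul, ← mulVec_mulVec, hx, hx', add_mulVec, add_mulVec, one_mulVec, one_mulVec,
      hv2, add_zero, hv1, add_zero])
  rw [mulVec_mulVec, ← N_av hx' (inv_right h1 h3), N_av_eq hx hx' h1 h, ← mulVec_mulVec] at this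
  exact ⟨_, this⟩

theorem jobPair : JobPair.{u} := by
  intro F _ _ k t N N' x x' h2 hN hN' hx hx' ⟨m, hm⟩
  have h : (x * x') ^ (2 * m + 1) = 1 := by rw [← hm, pow_orderOf_eq_one]
  have h1 := inv_sq h2 hN hx
  have h3 := inv_sq h2 hN' hx'
  have hi := inv_left h1 h3
  have hp : x * (x * x') ^ m = ((x * x') ^ m)⁻¹ * x := by
    rw [← inv_pow]; exact SemiconjBy.pow_right hi m
  have hmem : (x * x') ^ m * x ∈ Subgroup.closure ({x, x'} : Set (GG k t F)) :=
    mul_mem (pow_mem (mul_mem (Subgroup.subset_closure (by simp))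
      (Subgroup.subset_closure (by simp))) m) (Subgroup.subset_closure (by simp))
  have hsq : (x * x') ^ m * x * ((x * x') ^ m * x) = 1 := by
    rw [mul_assoc, ← mul_assoc x, hp, mul_assoc, h1, mul_one, mul_inv_cancel]
  refine ⟨_, hmem, hsq, ?_, ?_, ?_, ?_, pair_inf h2 hN hN' hx hx' h, pair_inf h2 hN' hN hx' hx
    (m := m) ?_⟩
  · have h4 : (x * x') ^ m * x * x = x' * ((x * x') ^ m * x) := by
      have h5 : x' = x * (x * x') := by rw [← mul_assoc, h1, one_mul]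
      have h6 : (x * x') * (x * x') ^ m = ((x * x') ^ m)⁻¹ := by
        rw [eq_inv_iff_mul_eq_one, ← pow_succ', ← pow_add, ← h]; congr 1; ring
      conv_rhs => rw [h5]
      rw [← mul_assoc, mul_assoc x, ← h5, h6, ← mul_inv_eq_iff_eq_mul, mul_inv_cancel_right,
        eq_mul_inv_iff_mul_eq, mul_assoc, hp, mul_inv_cancel_left]
    have h5 := congrArg (fun g : GG k t F => (g : EE k t F)) h4
    simp only [Units.val_mul (_ * x), Units.val_mul x'] at h5
    rw [hx', add_mul, one_mul] at h5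
    nth_rewrite 1 [hx] at h5
    rw [mul_add, mul_one, add_right_inj] at h5
    rw [cj_eq_iff, h5]
  · refine Subgroup.closure_induction 
      (p := fun (g : GG k t F) _ => ∀ v, (g : EE k t F) *ᵥ v - v ∈ rg N ⊔ rg N')
      ?_ (by simp) ?_ ?_ hmem
    · rintro g (rfl | rfl) v
      · rw [hx, add_mulVec, one_mulVec, add_sub_cancel_left]
        exact Submodule.mem_sup_left ⟨v, rfl⟩
      · rw [hx', add_mulVec, one_mulVec, add_sub_cancel_left]
        exact Submodule.mem_sup_right ⟨v, rfl⟩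
    · intro a b _ _ ha hb v
      have := Submodule.add_mem _ (ha ((b : EE k t F) *ᵥ v)) (hb v)
      rwa [sub_add_sub_cancel, mulVec_mulVec] at this
    · intro a _ ha v
      have := Submodule.neg_mem _ (ha (((a⁻¹ : GG k t F) : EE k t F) *ᵥ v))
      rwa [mulVec_inv_mulVec, neg_sub] at this
  · intro v hv hv'
    refine Subgroup.closure_induction (p := fun (g : GG k t F) _ => (g : EE k t F) *ᵥ v = v) ?_
      (by simp) ?_ ?_ hmem
    · rintro g (rfl | rfl)
      · rw [hx, add_mulVec, one_mulVec, hv, add_zero]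
      · rw [hx', add_mulVec, one_mulVec, hv', add_zero]
    · intro a b _ _ ha hb
      rw [Units.val_mul, ← mulVec_mulVec, hb, ha]
    · intro a _ ha
      conv_lhs => rw [← ha]
      rw [inv_mulVec_mulVec]
  · intro v hv
    have hv' : N *ᵥ v = 0 := hv
    have h4 : N *ᵥ (av (x * x') m *ᵥ v) = 0 := by
      rw [mulVec_mulVec, N_av hx hi, ← mulVec_mulVec, hv', mulVec_zero]
    rw [av_ker h2 hx hi m hv', add_comm]
    refine Submodule.add_mem_sup ⟨_, rfl⟩ ⟨h4, ?_⟩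
    change N' *ᵥ _ = 0
    rwa [mulVec_mulVec, N_av_eq hx hx' h1 h, ← mulVec_mulVec]
  · have : x' * x = (x * x')⁻¹ := by
      rw [_root_.mul_inv_rev, inv_eq_of_mul_eq_one_right h1, inv_eq_of_mul_eq_one_right h3]
    rw [this, inv_pow, h, inv_one]

end H73.WrE
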