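/- C7 tower, slot EVEN, part 2: `JobEven`. -/
import Cfsg.Agent.H60.WrKit
import Cfsg.Agent.H73.WrPair

set_option autoImplicit false

namespace H73.WrE
open Cfsg Cfsg.Geo Matrix H19 H60.Wr Module
open scoped MatrixGroups

universe u

theorem exists_exps {G : Type*} [Group G] [Finite G] {T : Subgroup G} {u : G}
    (hR : ∀ j, u ^ (2 * j) ∈ T → u ^ j ∈ T) (ho : ¬ Odd (orderOf u)) :
    ∃ y m n e : ℕ, u ^ y ∈ T ∧ y + 1 = 2 * m ∧ (u ^ (y + 1)) ^ (2 * n + 1) = 1 ∧ u ^ y ≠ 1 ∧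
      (u ^ y) ^ (2 ^ e) = 1 := by
  obtain ⟨e, s, ⟨n, hn⟩, hs⟩ := Nat.exists_eq_two_pow_mul_odd (orderOf_pos u).ne'
  have he : e ≠ 0 := by
    rintro rfl
    exact ho ⟨n, by simpa [hn] using hs⟩
  have h1 : ∀ i, u ^ (2 ^ i * s) ∈ T → u ^ s ∈ T := fun i => by
    induction i with
    | zero => simp
    | succ i ih => exact fun h => ih (hR _ (by rwa [← mul_assoc, ← pow_succ']))
  have h2 : u ^ s ∈ T := h1 e (by rw [← hs, pow_orderOf_eq_one]; exact T.one_mem)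
  have co : Nat.Coprime s (2 ^ e) := Nat.Coprime.pow_right _ (by
    rw [Nat.coprime_two_right]; exact ⟨n, hn⟩)
  obtain ⟨y, hy1, hy2⟩ := Nat.chineseRemainder co 0 (2 ^ e - 1)
  obtain ⟨c, rfl⟩ := (Nat.modEq_zero_iff_dvd).1 hy1
  have h3 : 2 ^ e ∣ s * c + 1 := by
    have := hy2.add_right 1
    rw [Nat.sub_add_cancel Nat.one_le_two_pow] at this
    exact (Nat.modEq_zero_iff_dvd).1 (this.trans (Nat.modEq_zero_iff_dvd.2 dvd_rfl))
  obtain ⟨m, hm⟩ : 2 ∣ s * c + 1 := (dvd_pow_self 2 he).trans h3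
  refine ⟨s * c, m, n, e, by rw [pow_mul]; exact T.pow_mem h2 c, hm, ?_, fun h => ?_, ?_⟩
  · rw [← pow_mul, ← orderOf_dvd_iff_pow_eq_one, hs, ← hn]
    exact Nat.mul_dvd_mul_right h3 s
  · have h4 : 2 ∣ s * c := ((dvd_pow_self 2 he).trans (Dvd.intro _ hs.symm)).trans
      (orderOf_dvd_iff_pow_eq_one.2 h)
    omega
  · rw [← pow_mul, ← orderOf_dvd_iff_pow_eq_one, hs]
    exact ⟨c, by ring⟩

section
variable {F : Type*} [Field F] {ι : Type} [Fintype ι] [DecidableEq ι]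

theorem av_av (h2 : (2 : F) = 0) {ρ : GL ι F} {n : ℕ} (h : ρ ^ (2 * n + 1) = 1) (v : ι → F) :
    av ρ n *ᵥ (av ρ n *ᵥ v) = av ρ n *ᵥ v :=
  av_fix h2 n (by rw [mulVec_mulVec, mul_av h])

theorem meet (h2 : (2 : F) = 0) {N N₁ : Matrix ι ι F} {τ τ₁ ρ : GL ι F}
    (hτ : (τ : Matrix ι ι F) = 1 + N) (h : τ * ρ = ρ⁻¹ * τ) (hτ₁ : (τ₁ : Matrix ι ι F) = 1 + N₁)
    (h₁ : τ₁ * ρ = ρ⁻¹ * τ₁) {n : ℕ} (hn : ρ ^ (2 * n + 1) = 1) (h0 : ρ ≠ 1) (hNN : N * N₁ = 0) :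
    ∃ z, z ≠ 0 ∧ z ∈ rg N ∧ z ∈ rg N₁ := by
  obtain ⟨v₀, hv₀⟩ : ∃ v₀, v₀ - av ρ n *ᵥ v₀ ≠ 0 := by
    by_contra! hc
    have h1 : av ρ n = 1 := ext_mulVec fun v => by rw [one_mulVec, ← sub_eq_zero.1 (hc v)]
    have := mul_av hn
    rw [h1, mul_one] at this
    exact h0 (Units.ext this)
  have hk : ∀ v, av ρ n *ᵥ (v - av ρ n *ᵥ v) = 0 := fun v => by
    rw [mulVec_sub, av_av h2 hn, sub_self]
  obtain ⟨v₂, h3, h4⟩ : ∃ v₂, av ρ n *ᵥ v₂ = 0 ∧ N₁ *ᵥ v₂ ≠ 0 := by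
    by_cases h5 : N₁ *ᵥ (v₀ - av ρ n *ᵥ v₀) = 0
    · have h6 := av_ker h2 hτ₁ h₁ n h5
      rw [hk, zero_add] at h6
      refine ⟨_, hk (hs ρ n *ᵥ (v₀ - av ρ n *ᵥ v₀)), ?_⟩
      rwa [mulVec_sub, mulVec_mulVec _ N₁ (av ρ n), N_av hτ₁ h₁, ← mulVec_mulVec, ← h6, hk,
        sub_zero]
    · exact ⟨_, hk v₀, h5⟩
  refine ⟨_, h4, ?_, mem_rg.2 ⟨v₂, rfl⟩⟩
  have h6 := av_ker h2 hτ h n (v := N₁ *ᵥ v₂) (by rw [mulVec_mulVec, hNN, zero_mulVec])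
  rw [mulVec_mulVec, ← N_av hτ₁ h₁, ← mulVec_mulVec, h3, mulVec_zero, zero_add] at h6
  exact mem_rg.2 ⟨_, h6.symm⟩

theorem one_add_pow (h2 : (2 : F) = 0) (X : Matrix ι ι F) (e : ℕ) :
    (1 + X) ^ (2 ^ e) = 1 + X ^ (2 ^ e) := by
  induction e with
  | zero => simp
  | succ e ih =>
    rw [pow_succ, pow_mul, pow_mul, ih, sq, sq, mul_add, add_mul, add_mul]
    simp [add_assoc, ← add_assoc (X ^ 2 ^ e), add_self' h2]

theorem finrank_le_map_inf {V : Type*} [AddCommGroup V] [Module F V] [FiniteDimensional F V]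
    (f : V →ₗ[F] V) (S : Submodule F V) :
    finrank F S = finrank F (S.map f) + finrank F ↥(S ⊓ LinearMap.ker f) := by
  rw [← LinearMap.finrank_range_add_finrank_ker (f.domRestrict S), LinearMap.range_domRestrict,
    LinearMap.ker_domRestrict, ← Submodule.finrank_map_subtype_eq, Submodule.map_comap_subtype]

end

variable {F : Type u} [Field F] {k t : ℕ}

theorem mem_of_meet {i : Fin t} {v w : Fin k → F} {z : VV k t F} (h0 : z ≠ 0)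
    (h1 : z ∈ LS i (F ∙ v)) (h2 : z ∈ LS i (F ∙ w)) : w ∈ F ∙ v := by
  by_contra hw
  obtain ⟨ψ, h3, h4⟩ := exists_dot_of_notMem hw
  have h5 : z ∈ kn (em i (ro w ψ) : EE k t F) := by
    rw [kn_em]
    exact LS_le_LS.2 (fun y hy => by rw [mem_kn, ro_mulVec, h4 y hy, zero_smul]) h1
  obtain ⟨a, rfl⟩ := mem_rg.1 (rg_em_ro i (φ := ψ) (by rintro rfl; simp at h3) w ▸ h2)
  rw [mem_kn, mulVec_mulVec, ← map_mul, ro_mul_ro, h3, one_smul] at h5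
  exact h0 h5

theorem jobEven : JobEven.{u} := by
  intro F _ _ k t M N' i v χ w x x' H hO hr hw hle hk hx hx'
  by_contra ho
  have h2 := H.two
  have hxx := inv_sq h2 hr.em_sq hx
  have hxx' := inv_sq h2 hO.sq hx'
  have hxM : x ∈ M := In.coe.1 (hx ▸ hr.2.2.2)
  have hxM' : x' ∈ M := In.coe.1 (hx' ▸ hO.mem)
  have hxT : x ∈ TT k t F := In.coe.1 (hx ▸ H.root_mem hr)
  have hxT' : x' ∉ TT k t F := fun h => hO.not_mem (hx' ▸ In.coe.2 h)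
  have huM : ∀ j, (x * x') ^ j ∈ M := fun j => M.pow_mem (M.mul_mem hxM hxM') j
  have hp : ∀ j, x * (x * x') ^ j = ((x * x') ^ j)⁻¹ * x := fun j => by
    rw [← inv_pow]; exact SemiconjBy.pow_right (inv_left hxx hxx') j
  have hp' : ∀ j, x' * (x * x') ^ j = ((x * x') ^ j)⁻¹ * x' := fun j => by
    rw [← inv_pow]; exact SemiconjBy.pow_right (inv_right hxx hxx') j
  have hq : ∀ (z : GG k t F) j, z * (x * x') ^ j = ((x * x') ^ j)⁻¹ * z →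
      (x * x') ^ j * z * ((x * x') ^ j)⁻¹ = (x * x') ^ (2 * j) * z := fun z j h => by
    rw [mul_inv_eq_iff_eq_mul, mul_assoc, h, two_mul, pow_add, mul_assoc, mul_inv_cancel_left]
  obtain ⟨y, m, n, e, hyT, hym, hρ, hy1, hye⟩ := exists_exps (T := TT k t F) (u := x * x')
    (fun j hj => H.R (huM j) hr ⟨_, (TT k t F).mul_mem hj hxT, by
      rw [← hq x j (hp j), ← map_one (cj ((x * x') ^ j)), ← map_add, ← hx]; rfl⟩) ho
  obtain ⟨g, hg, i₀, w₀, φ₀, hr₀, hN', -⟩ := id hO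
  set x₁ := (x * x') ^ y * x with hx₁
  have hx₁T : x₁ ∈ TT k t F := (TT k t F).mul_mem hyT hxT
  have hx₁M : x₁ ∈ M := M.mul_mem (huM y) hxM
  have e1 : (x₁ : EE k t F) = 1 + cj ((x * x') ^ m * g) (em i₀ (ro w₀ φ₀)) := by
    have : x₁ = (x * x') ^ m * x' * ((x * x') ^ m)⁻¹ := by
      rw [hq x' m (hp' m), ← hym, pow_succ, mul_assoc, mul_assoc x, hxx', mul_one]
    rw [this, cj_mul, ← hN', ← map_one (cj ((x * x') ^ m)), ← map_add, ← hx']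
    rfl
  obtain ⟨j, a, ha⟩ := H.rig _ (M.mul_mem (huM m) hg) i₀ w₀ φ₀ hr₀ (e1 ▸ In.coe.2 hx₁T)
  obtain ⟨w₁, φ₁, hw₁, hφ₁, rfl, -⟩ := maps_of_cj hr₀.1 hr₀.2.1 ha
  have hsq₁ : (em j (ro w₁ φ₁) * em j (ro w₁ φ₁) : EE k t F) = 0 := by
    rw [← ha, ← map_mul, hr₀.em_sq, map_zero]
  have hd₁ : φ₁ ⬝ᵥ w₁ = 0 := by
    rw [← map_mul, em_eq_zero, ro_mul_ro] at hsq₁
    exact (smul_eq_zero.1 hsq₁).resolve_right (ro_ne_zero hw₁ hφ₁)
  rw [ha] at e1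
  have hx₁x₁ := inv_sq h2 hsq₁ e1
  have eρ : x₁ * x' = (x * x') ^ (y + 1) := by rw [hx₁, mul_assoc, pow_succ]
  have i1 : x * (x₁ * x') = (x₁ * x')⁻¹ * x := by rw [eρ]; exact hp _
  have i2 := inv_left hx₁x₁ hxx'
  rw [← eρ] at hρ
  have hρ1 : x₁ * x' ≠ 1 := fun h => hxT' (by
    rw [← inv_eq_of_mul_eq_one_right h]; exact (TT k t F).inv_mem hx₁T)
  have exx : x * x₁ = ((x * x') ^ y)⁻¹ := by rw [hx₁, ← mul_assoc, hp, mul_assoc, hxx, mul_one]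
  by_cases hij : i = j
  · subst hij
    have e2 : ((x * x₁ : GG k t F) : EE k t F) =
        em i (1 + (ro v χ + ro w₁ φ₁ + (χ ⬝ᵥ w₁) • ro v φ₁)) := by
      rw [Units.val_mul, hx, e1, ← ro_mul_ro]
      simp only [map_add, map_mul, map_one]
      noncomm_ring
    have e3 : (χ ⬝ᵥ w₁) * (φ₁ ⬝ᵥ v) = 0 := by
      have h3 : ((x * x₁ : GG k t F) : EE k t F) ^ (2 ^ e) = 1 := by
        rw [← Units.val_pow_eq_pow_val, exx, inv_pow, hye, inv_one, Units.val_one]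
      rw [e2, ← map_pow, ← map_one (em i), em_inj, one_add_pow h2, add_eq_left] at h3
      have h4 := (Matrix.isNilpotent_trace_of_isNilpotent ⟨_, h3⟩).eq_zero
      rwa [trace_add, trace_add, trace_smul, trace_vecMulVec, trace_vecMulVec, trace_vecMulVec,
        dotProduct_comm v, hr.2.2.1, dotProduct_comm w₁, hd₁, zero_add, zero_add,
        dotProduct_comm v] at h4
    obtain ⟨c, rfl⟩ : ∃ c : F, c • v = w₁ := by
      rw [← Submodule.mem_span_singleton]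
      rcases mul_eq_zero.1 e3 with h3 | h3
      · obtain ⟨z, h0, h4, h5⟩ := meet h2 hx i1 e1 i2 hρ hρ1 (by
          rw [← map_mul, ro_mul_ro, h3, zero_smul, map_zero])
        exact mem_of_meet h0 (rg_em_ro i hr.2.1 v ▸ h4) (rg_em_ro i hφ₁ w₁ ▸ h5)
      · obtain ⟨z, h0, h4, h5⟩ := meet h2 e1 i2 hx i1 hρ hρ1 (by
          rw [← map_mul, ro_mul_ro, h3, zero_smul, map_zero])
        exact mem_of_meet h0 (rg_em_ro i hr.2.1 v ▸ h5) (rg_em_ro i hφ₁ w₁ ▸ h4)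
    rw [dotProduct_smul, hr.2.2.1, smul_zero, zero_smul, add_zero, ro_smul_left, ← ro_smul_right,
      ← ro_add_right, map_add, map_one] at e2
    have hr₂ : Rt M i v (χ + c • φ₁) := by
      refine ⟨hr.1, fun h0 => hy1 ?_, ?_, e2 ▸ In.coe.2 (M.mul_mem hxM hx₁M)⟩
      · rw [← inv_eq_one, ← exx]
        exact Units.ext (by rw [e2, h0]; simp)
      · rw [add_dotProduct, hr.2.2.1, smul_dotProduct, ← dotProduct_smul, hd₁, zero_add]
    refine hxT' (H.R hxM' hr₂ ?_)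
    have h3 := inv_sq h2 hr₂.em_sq e2
    have h4 : x' * (x * x₁) * x'⁻¹ = x * x₁ := by
      have h5 : x * x₁ = (x * x') ^ y := by rw [← inv_eq_of_mul_eq_one_right h3, exx, inv_inv]
      rw [mul_inv_eq_iff_eq_mul]
      conv_lhs => rw [h5, hp', ← exx]
    refine ⟨_, (TT k t F).mul_mem hxT hx₁T, ?_⟩
    rw [← map_one (cj x'), ← map_add, ← e2]
    conv_lhs => rw [← h4]
    rfl
  · have d1 := finrank_LS_inf hij hr.1 hw₁
    have d2 := finrank_LS_inf hij hw hw₁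
    have d3 := finrank_le_map_inf (toLin' (em i (ro v χ) : EE k t F)) (rg (em j (ro w₁ φ₁)))
    rw [rank_em_ro j hw₁ hφ₁] at d3
    have d4 : (rg (em j (ro w₁ φ₁) : EE k t F)).map (toLin' (em i (ro v χ) : EE k t F)) ≤
        LS i (F ∙ v) ⊓ LS j (F ∙ w₁) := by
      rintro _ ⟨_, ⟨a, rfl⟩, rfl⟩
      rw [← rg_em_ro i hr.2.1, ← rg_em_ro j hφ₁]
      refine ⟨⟨_, rfl⟩, mem_rg.2 ⟨em i (ro v χ) *ᵥ a, ?_⟩⟩
      rw [toLin'_apply, toLin'_apply, mulVec_mulVec, mulVec_mulVec, em_comm hij]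
    have d5 : rg (em j (ro w₁ φ₁) : EE k t F) ⊓ kn (em i (ro v χ)) ≤
        (LS i (F ∙ w) ⊓ LS j (F ∙ w₁)) ⊔ (LS i (F ∙ v) ⊓ LS j (F ∙ w₁)) := by
      rintro z ⟨h3, h4⟩
      obtain ⟨a, rfl⟩ := mem_rg.1 h3
      have h5 := av_ker h2 hx i1 n (mem_kn.1 h4)
      have h6 : av (x₁ * x') n *ᵥ (em j (ro w₁ φ₁) *ᵥ a) ∈ LS j (F ∙ w₁) := by
        rw [mulVec_mulVec, ← N_av e1 i2, ← mulVec_mulVec, ← rg_em_ro j hφ₁]
        exact mem_rg.2 ⟨_, rfl⟩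
      rw [h5]
      refine Submodule.add_mem_sup ⟨hle ⟨?_, ?_⟩, h6⟩ ⟨?_, ?_⟩
      · rw [mulVec_mulVec, ← N_av e1 i2, ← N_av_eq e1 hx' hx₁x₁ hρ, ← mulVec_mulVec]
        exact mem_rg.2 ⟨_, rfl⟩
      · refine mem_kn.2 ?_
        rw [mulVec_mulVec, N_av hx i1, ← mulVec_mulVec, mem_kn.1 h4, mulVec_zero]
      · rw [← rg_em_ro i hr.2.1]
        exact mem_rg.2 ⟨_, rfl⟩
      · rw [← sub_eq_iff_eq_add'.2 h5]
        exact Submodule.sub_mem _ (rg_em_ro j hφ₁ w₁ ▸ h3) h6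
    have d6 := Submodule.finrank_mono d4
    have k3 := H.k3
    have hpos : 0 < k ^ (t - 1) := by positivity
    rcases hk with hk | hk
    · have d7 := Submodule.finrank_mono (d5.trans (sup_le (inf_le_inf_right _ (LS_le_LS.2
        ((Submodule.span_singleton_le_iff_mem _ _).2 hk))) le_rfl))
      nlinarith
    · have d7 := Submodule.finrank_mono d5
      have d8 := Submodule.finrank_add_le_finrank_add_finrank (LS i (F ∙ w) ⊓ LS j (F ∙ w₁))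
        (LS i (F ∙ v) ⊓ LS j (F ∙ w₁))
      have d9 : finrank F ↥(LS i (F ∙ w) ⊓ LS j (F ∙ w₁)) =
          finrank F ↥(LS i (F ∙ v) ⊓ LS j (F ∙ w₁)) :=
        Nat.eq_of_mul_eq_mul_right (by omega) (d2.trans d1.symm)
      nlinarith

end H73.WrE
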