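/- C7 tower, slot BISO: the isolation property for symplectic and orthogonal factors. -/
import Cfsg.Agent.H60.WrKit

set_option autoImplicit false

namespace H73.WrB
open Cfsg Cfsg.Geo Matrix H19 H60.Wr Module
open scoped MatrixGroups

universe u

variable {F : Type u} [Field F] {k t : ℕ} {B : Frm (Fin k) F} {Γ : Subgroup (GL (Fin k) F)}

/-- A matrix with all isotropic vectors as eigenvectors is a scalar. -/
theorem sc_of_iso (h1 : GF B Γ) (h2 : GF2 B) {X : Mk k F} (h : ∀ x ∈ IsoV B, X *ᵥ x ∈ F ∙ x) :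
    Sc X := by
  have key : ∀ x ∈ IsoV B, ∀ y ∈ IsoV B, B.f y x = 0 → ∀ c : F, X *ᵥ x = c • x → X *ᵥ y = c • y := by
    intro x hx y hy hxy c hc
    by_cases h3 : y ∈ F ∙ x
    · obtain ⟨r, rfl⟩ := Submodule.mem_span_singleton.1 h3
      rw [mulVec_smul, hc, smul_comm]
    obtain ⟨d, hd⟩ := Submodule.mem_span_singleton.1 (h y hy)
    obtain ⟨e, he⟩ := Submodule.mem_span_singleton.1 (h (x + y) ⟨fun h0 => h3 (by
      rw [← neg_eq_of_add_eq_zero_right h0]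
      exact Submodule.neg_mem _ (Submodule.mem_span_singleton_self x)), by
        rw [B.add_left, B.add_right, B.add_right, hx.2, hy.2, hxy, B.eq_zero_comm.1 hxy]; simp⟩)
    rw [mulVec_add, hc, ← hd] at he
    have h4 : (d - e) • y = (e - c) • x := by linear_combination (norm := module) -he
    have h5 : d - e = 0 := by
      by_contra h5
      exact h3 ((Submodule.smul_mem_iff _ h5).1
        (h4 ▸ Submodule.smul_mem _ _ (Submodule.mem_span_singleton_self x)))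
    rw [h5, zero_smul] at h4
    rw [← hd, sub_eq_zero.1 h5, sub_eq_zero.1 ((smul_eq_zero.1 h4.symm).resolve_right hx.1)]
  obtain ⟨x, hx⟩ := h1.ex
  obtain ⟨c, hc⟩ := Submodule.mem_span_singleton.1 (h x hx)
  have h3 : Submodule.span F {y | y ∈ IsoV B ∧ B.f x y ≠ 0} ≤
      LinearMap.eqLocus (toLin' X) (toLin' (c • 1)) := Submodule.span_le.2 fun y hy => by
    obtain ⟨z, hz, h4, h5⟩ := h2.two x hx y hy.1
    have := key z hz y hy.1 (B.eq_zero_comm.1 h5) c (key x hx z hz h4 c hc.symm)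
    change toLin' X y = toLin' (c • 1) y
    rw [toLin'_apply, toLin'_apply, this, smul_mulVec, one_mulVec]
  rw [h1.sp x hx.1] at h3
  exact ⟨c, toLin'.injective (LinearMap.ext fun v => h3 Submodule.mem_top)⟩

theorem exists_pair (h1 : GF B Γ) (h2 : GF2 B) {j : Fin t} {γ : EE k t F} (hγ : ¬ InC j γ) :
    ∃ x ∈ IsoV B, ∃ y ∈ IsoV B, B.f x y = 0 ∧ x ∉ F ∙ y ∧ y ∉ F ∙ x ∧ ct j (ph B y) x γ ≠ 0 := by
  by_contra! hc
  refine hγ (InC.of_cpt fun l => sc_of_iso h1 h2 fun x hx => ?_)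
  by_contra h3
  obtain ⟨v, h4, h5⟩ := exists_f_of_notMem (B := B) h3
  have h6 : Submodule.span F {y | y ∈ IsoV B ∧ B.f y x = 0 ∧ y ∉ F ∙ x} ≤
      pp B (cpt j l γ *ᵥ x) := Submodule.span_le.2 fun y hy => by
    have h7 : x ∉ F ∙ y := fun h7 => by
      obtain ⟨r, rfl⟩ := Submodule.mem_span_singleton.1 h7
      have hr : r ≠ 0 := by rintro rfl; exact hx.1 (zero_smul _ _)
      exact hy.2.2 (by
        rw [Submodule.span_singleton_smul_eq hr.isUnit]; exact Submodule.mem_span_singleton_self y)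
    refine mem_pp.2 (B.eq_zero_comm.1 ?_)
    rw [← ph_dot, cpt_spec, hc x hx y hy.1 (B.eq_zero_comm.1 hy.2.1) h7 hy.2.2, map_zero]
  have := h6 (h2.pp x hx (x := v) (B.eq_zero_comm.1 (h5 x (Submodule.mem_span_singleton_self x))))
  exact one_ne_zero (h4.symm.trans (B.eq_zero_comm.1 (mem_pp.1 this)))

/-- The general element supported on the line through `x` and `y`. -/
noncomputable def ZZ (B : Frm (Fin k) F) (j : Fin t) (x y : Fin k → F) (α β α' β' : EE k t F) :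
    EE k t F :=
  em j (rf B x y) * α + em j (rf B y x) * β + em j (rf B x x) * α' + em j (rf B y y) * β'

section
variable {j : Fin t} {ℬ : AddSubgroup (EE k t F)} {x y : Fin k → F} {α β α' β' γ : EE k t F}

theorem step (h1 : GF B Γ) (hℬ : ∀ s ∈ Γ, ∀ X ∈ ℬ, cj (emG j s) X ∈ ℬ) (hy : B.f y y = 0)
    (hxy : B.f x y = 0) (hn : x ∉ F ∙ y) (a1 : InC j α) (a2 : InC j β) (a3 : InC j α')
    (a4 : InC j β') (h : ZZ B j x y α β α' β' ∈ ℬ) : ZZ B j x y α' α' 0 (α + β + α') ∈ ℬ := by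
  obtain ⟨v, h3, h4⟩ := exists_f_of_notMem (B := B) hn
  have h5 := h4 y (Submodule.mem_span_singleton_self y)
  obtain ⟨c, s, hs, e⟩ := h1.eich y v hy (B.eq_zero_comm.1 h5)
  have e1 : (s : Mk k F) *ᵥ x = x + y := by
    simp [e, sub_mulVec, add_mulVec, smul_mulVec, rf_mulVec, h3, hxy]
  have e2 : (s : Mk k F) *ᵥ y = y := by
    simp [e, sub_mulVec, add_mulVec, smul_mulVec, rf_mulVec, h5, hy]
  have := ℬ.sub_mem (hℬ s hs _ h) h
  simp only [ZZ, map_add, map_mul, cj_emG_em, cj_rf (h1.iso hs), e1, e2, a1.cj_emG, a2.cj_emG,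
    a3.cj_emG, a4.cj_emG, rf_add_right, ro_add_left] at this
  convert this using 1
  rw [ZZ]
  noncomm_ring

theorem fin1 (h1 : GF B Γ) (hℬ : ∀ s ∈ Γ, ∀ X ∈ ℬ, cj (emG j s) X ∈ ℬ) (hx : x ∈ IsoV B)
    (hy : y ∈ IsoV B) (hxy : B.f x y = 0) (hn : x ∉ F ∙ y) (a1 : InC j α) (a2 : InC j β)
    (h0 : α ≠ 0 ∨ β ≠ 0) (h : ZZ B j x y α β 0 0 ∈ ℬ) :
    ∃ ν ∈ RN B ∪ RM B, ∃ δ, InC j δ ∧ δ ≠ 0 ∧ em j ν * δ ∈ ℬ := by
  by_cases h3 : α + β = 0
  · obtain rfl : β = -α := (neg_eq_of_add_eq_zero_right h3).symm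
    refine ⟨_, Or.inr ⟨x, hx, y, hy, hxy, hn, rfl⟩, α, a1, by simpa using h0, ?_⟩
    simpa [ZZ, sub_mul, sub_eq_add_neg, add_mul] using h
  · refine ⟨_, Or.inl ⟨y, hy, rfl⟩, _, a1.add a2, h3, ?_⟩
    simpa [ZZ] using step h1 hℬ hy.2 hxy hn a1 a2 InC.zero InC.zero h

theorem fin2 (h1 : GF B Γ) (h2 : (2 : F) ≠ 0) (hℬ : ∀ s ∈ Γ, ∀ X ∈ ℬ, cj (emG j s) X ∈ ℬ)
    (hy : y ∈ IsoV B) (hxy : B.f x y = 0) (hn : x ∉ F ∙ y) (a1 : InC j α) (a2 : InC j β)
    (a3 : InC j α') (a4 : InC j β') (h0 : α' ≠ 0) (h : ZZ B j x y α β α' β' ∈ ℬ) :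
    ∃ ν ∈ RN B ∪ RM B, ∃ δ, InC j δ ∧ δ ≠ 0 ∧ em j ν * δ ∈ ℬ := by
  refine ⟨_, Or.inl ⟨y, hy, rfl⟩, _, a3.add a3, by rw [← two_smul F]; exact smul_ne_zero h2 h0, ?_⟩
  simpa [ZZ] using step h1 hℬ hy.2 hxy hn a3 a3 InC.zero ((a1.add a2).add a3)
    (step h1 hℬ hy.2 hxy hn a1 a2 a3 a4 h)

theorem dd (hℬ : ∀ s ∈ Γ, ∀ X ∈ ℬ, cj (emG j s) X ∈ ℬ) {a b : Mk k F} (ha : In Γ (1 + a))
    (hb : In Γ (1 + b)) (e1 : a * a = 0) (e2 : b * b = 0) (e3 : a * b = 0) (e4 : b * a = 0)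
    (hγ : γ ∈ ℬ) : em j a * γ * em j b + em j b * γ * em j a ∈ ℬ := by
  have key : ∀ c, In Γ (1 + c) → c * c = 0 → ∀ Z ∈ ℬ,
      em j c * Z - Z * em j c - em j c * Z * em j c ∈ ℬ := fun c ⟨s, hs, e⟩ h Z hZ => by
    have := ℬ.sub_mem (hℬ s hs Z hZ) hZ
    rwa [cj_of_val (X := em j c) (by rw [coe_emG, e, map_add, map_one])
      (by rw [← map_mul, h, map_zero]), add_sub_cancel_left] at this
  have := ℬ.neg_mem (key a ha e1 _ (key b hb e2 _ hγ))
  have f3 : (em j a * em j b : EE k t F) = 0 := by rw [← map_mul, e3, map_zero]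
  have f4 : (em j b * em j a : EE k t F) = 0 := by rw [← map_mul, e4, map_zero]
  have f5 : ∀ Z : EE k t F, em j a * (em j b * Z) = 0 := fun Z => by rw [← mul_assoc, f3, zero_mul]
  convert this using 1
  simp only [mul_sub, sub_mul, mul_assoc, f4, f5, mul_zero, zero_mul]
  abel

end

theorem jobBIso : JobBIso.{u} := by
  intro F _ _ k t B M H j ℬ hℬ _ γ hγ hc
  obtain ⟨x, hx, y, hy, hxy, hn, hn', h0⟩ := exists_pair H.gf H.gf2 hc
  have hyx := B.eq_zero_comm.1 hxy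
  rcases H.kind with ⟨-, -, h3, -⟩ | ⟨hε, h2, -⟩
  · have := dd hℬ (a := rf B x x) (b := rf B y y) (by simpa using h3 x 1) (by simpa using h3 y 1)
      (by rw [rf_mul_rf, hx.2, zero_smul]) (by rw [rf_mul_rf, hy.2, zero_smul])
      (by rw [rf_mul_rf, hyx, zero_smul]) (by rw [rf_mul_rf, hxy, zero_smul]) hγ
    rw [ct_spec, ct_spec] at this
    exact fin1 H.gf hℬ hx hy hxy hn (ct_inC j (ph B x) y γ) (ct_inC _ _ _ _) (Or.inr h0)
      (by simpa [ZZ] using this)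
  · have e1 : ∀ c : F, (rf B x y - rf B y x - c • rf B x x) * (rf B x y - rf B y x - c • rf B x x)
        = 0 := fun c => by
      simp [mul_sub, sub_mul, rf_mul_rf, hx.2, hy.2, hxy, hyx]
    have e2 : In (Gam M) (1 + (rf B x y - rf B y x)) := by
      obtain ⟨c, hc⟩ := H.gf.eich x y hx.2 hyx
      rw [hε, one_smul, add_sub_assoc, add_sub_assoc] at hc
      have h3 := (hc.mono H.gf.iso).skew (e1 c)
      rw [B.adj_sub, B.adj_sub, B.adj_smul, adj_rf, adj_rf, adj_rf, hε, H.sig, one_smul, one_smul,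
        one_smul] at h3
      have h4 : (2 * c) • rf B x x = 0 := by linear_combination (norm := module) -h3
      rw [(mul_eq_zero.1 ((smul_eq_zero.1 h4).resolve_right
        (rf_ne_zero hx.1 hx.1))).resolve_left h2] at hc
      simpa using hc
    have e3 := e1 0
    rw [zero_smul, sub_zero] at e3
    have h3 := dd hℬ e2 e2 e3 e3 e3 e3 hγ
    have h4 : ZZ B j x y ((2 : F) • ct j (ph B y) x γ) ((2 : F) • ct j (ph B x) y γ)
        (-(2 : F) • ct j (ph B y) y γ) (-(2 : F) • ct j (ph B x) x γ) ∈ ℬ := by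
      convert h3 using 1
      simp only [ZZ, map_sub, mul_sub, sub_mul, ct_spec, mul_smul_comm]
      module
    have c1 := fun (r : F) φ z => (ct_inC j φ z γ).smul r
    by_cases h5 : -(2 : F) • ct j (ph B y) y γ = 0
    · by_cases h6 : -(2 : F) • ct j (ph B x) x γ = 0
      · rw [h5, h6] at h4
        exact fin1 H.gf hℬ hx hy hxy hn (c1 _ _ _) (c1 _ _ _) (Or.inl (smul_ne_zero h2 h0)) h4
      · refine fin2 H.gf h2 hℬ hx hyx hn' (c1 2 (ph B x) y) (c1 2 (ph B y) x) (c1 _ _ _)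
          (c1 (-2) (ph B y) y) h6 ?_
        convert h4 using 1
        simp only [ZZ]
        abel
    · exact fin2 H.gf h2 hℬ hy hxy hn (c1 _ _ _) (c1 _ _ _) (c1 _ _ _) (c1 _ _ _) h5 h4

end H73.WrB
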