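import Cfsg.Agent.H73.J3
import Cfsg.Agent.H73.GF4
import Cfsg.Prelude.Def_Classical

/-! The triple cover of the third Janko group is unitary of determinant one. -/

namespace H73
namespace J3

open Cfsg Cfsg.Spor Matrix

variable {F : Type*} [Field F] [Fintype F] (hF : Fintype.card F = 4) {ω : F}
  (hω : ω ^ 2 + ω + 1 = 0)

/-- the Hermitian form on `F9 → F`. -/
def hf9 (F : Type*) [Field F] (u v : F9 → F) : F := ∑ z, u z * v z ^ 2

include hF hω in
theorem ev4_sq (p : ZMod 2 × ZMod 2) : ev4 ω p ^ 2 = ev4 ω (p.1 + p.2, p.2) := by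
  rw [sq, ← ev4_mul hF hω]
  congr 1
  revert p; decide

include hF in
theorem ev4_sum {ι : Type*} (s : Finset ι) (f : ι → ZMod 2 × ZMod 2) :
    ev4 ω (∑ i ∈ s, f i) = ∑ i ∈ s, ev4 ω (f i) := by
  classical
  induction s using Finset.induction_on with
  | empty => exact ev4_00
  | insert a s ha ih => rw [Finset.sum_insert ha, Finset.sum_insert ha, ev4_add hF, ih]

/-- unitarity test on tables. -/
def unitOK (t : F9 → F9 → ZMod 2 × ZMod 2) : Prop :=
  ∀ z z' : F9, ∑ w, mul4 (t w z) ((t w z').1 + (t w z').2, (t w z').2) =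
    if z = z' then (1, 0) else (0, 0)

instance unitOK_dec (t : F9 → F9 → ZMod 2 × ZMod 2) : Decidable (unitOK t) :=
  inferInstanceAs (Decidable (∀ _ _ : F9, _))

theorem unit0 : unitOK (tD (1, 0)) := by decide +kernel
theorem unit1 : unitOK (tC (1, 1)) := by decide +kernel

include hF hω in
theorem pres_of_unit {t : F9 → F9 → ZMod 2 × ZMod 2} (h : unitOK t) (u v : F9 → F) :
    hf9 F ((Matrix.of fun w z => ev4 ω (t w z)) *ᵥ u) ((Matrix.of fun w z => ev4 ω (t w z)) *ᵥ v) =
      hf9 F u v := by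
  have : CharP F 2 := (CharP.charP_iff_prime_eq_zero Nat.prime_two).2 (by exact_mod_cast f4_two hF)
  have h1 : ∀ z z', ∑ w, ev4 ω (t w z) * ev4 ω (t w z') ^ 2 = if z = z' then 1 else 0 := by
    intro z z'
    simp only [ev4_sq hF hω, ← ev4_mul hF hω]
    rw [← ev4_sum hF, h z z']
    split_ifs <;> simp
  unfold hf9
  simp only [mulVec, dotProduct, of_apply, sum_pow_char, mul_pow, Finset.sum_mul, Finset.mul_sum]
  rw [Finset.sum_comm]
  refine Finset.sum_congr rfl fun z' _ => ?_
  rw [Finset.sum_comm]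
  have : ∀ z, ∑ w, ev4 ω (t w z) * u z * (ev4 ω (t w z') ^ 2 * v z' ^ 2) =
      (if z = z' then 1 else 0) * (u z * v z' ^ 2) := by
    intro z
    rw [← h1, Finset.sum_mul]
    exact Finset.sum_congr rfl fun w _ => by ring
  simp [this]

include hF hω in
theorem threeJ3_pres : threeJ3 F ω ≤ preserving (Units.coeHom (Matrix F9 F9 F)) (hf9 F) := by
  rw [threeJ3_eq hF hω, tgen, Subgroup.closure_le]
  rintro g ⟨i, hi, hg⟩ u v
  interval_cases i
  · have := (R_iff hF hω c0 g).1 hg
    simp only [Units.coeHom_apply, this]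
    exact pres_of_unit hF hω unit0 u v
  · have := (R_iff hF hω c1 g).1 hg
    simp only [Units.coeHom_apply, this]
    exact pres_of_unit hF hω unit1 u v

include hF hω in
theorem threeJ3_det (g : GL F9 F) (hg : g ∈ threeJ3 F ω) : (g : Matrix F9 F9 F).det = 1 := by
  have hv := hvF hF hω
  have h1 := (prodOK_spec hv.self (alts_in _ _ hv TA_w) TA_p
    (N := (Matrix.GeneralLinearGroup.det (n := F9) (R := F)).ker) (fun g _ hg => by
      rw [MonoidHom.mem_ker]
      have h2 : Matrix.GeneralLinearGroup.det g ^ 19 = 1 := by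
        rw [← map_pow]; exact (congrArg _ hg).trans (map_one _)
      have h3 : Matrix.GeneralLinearGroup.det g ^ 3 = 1 := by
        have := pow_card_eq_one' (x := Matrix.GeneralLinearGroup.det g)
        rwa [Nat.card_units, Nat.card_eq_fintype_card, hF] at this
      have h4 : Matrix.GeneralLinearGroup.det g ^ 19 =
        (Matrix.GeneralLinearGroup.det g ^ 3) ^ 6 * Matrix.GeneralLinearGroup.det g := by group
      rwa [h4, h3, one_pow, one_mul] at h2)).tgen_le
  rw [threeJ3_eq hF hω] at hg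
  have h5 : Matrix.GeneralLinearGroup.det g = 1 := MonoidHom.mem_ker.1 (h1 hg)
  rw [← Matrix.GeneralLinearGroup.val_det_apply, h5, Units.val_one]

/-- the embedding in the special unitary group. -/
noncomputable def toSU (e : F9 ≃ Fin 9) : threeJ3 F ω →* SU 9 F 2 where
  toFun g := ⟨⟨Matrix.reindex e e (g : GL F9 F), by
      rw [Matrix.det_reindex_self]; exact threeJ3_det hF hω _ g.2⟩, by
    intro u v
    have h := threeJ3_pres hF hω g.2 (u ∘ e) (v ∘ e)
    have h2 : ∀ a b : Fin 9 → F, hermForm 9 F 2 a b = hf9 F (a ∘ e) (b ∘ e) := fun a b =>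
      (Equiv.sum_comp e (fun i => a i * b i ^ 2)).symm
    have h3 : ∀ a : Fin 9 → F, (Matrix.reindex e e (g : GL F9 F).1 *ᵥ a) ∘ e =
        (g : GL F9 F).1 *ᵥ (a ∘ e) := by
      intro a
      rw [Matrix.reindex_apply, Matrix.submatrix_mulVec_equiv]
      ext i; simp
    rw [h2, h2 u v, ← h]
    show hf9 F ((Matrix.reindex e e (g : GL F9 F).1 *ᵥ u) ∘ e)
      ((Matrix.reindex e e (g : GL F9 F).1 *ᵥ v) ∘ e) = _
    rw [h3, h3]; rfl⟩
  map_one' := by
    ext i j
    simp [Matrix.one_apply]
  map_mul' a b := by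
    apply Subtype.ext; apply Subtype.ext
    exact (Matrix.submatrix_mul_equiv _ _ _ e.symm _).symm

theorem toSU_inj (e : F9 ≃ Fin 9) : Function.Injective (toSU hF hω e) := by
  intro a b h
  have : Matrix.reindex e e (a : GL F9 F).1 = Matrix.reindex e e (b : GL F9 F).1 :=
    congrArg (fun x : SU 9 F 2 => x.1.1) h
  exact Subtype.ext (Units.ext ((Matrix.reindex e e).injective this))

end J3
end H73
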