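import Cfsg.Agent.H2.KpSpec

/-! KP-TOP: the class count by cycle patterns on a `t`-subset. -/

set_option autoImplicit false
set_option linter.unusedSectionVars false

namespace H73.KpT
open Equiv MulAction H2.Ln H2.Kp

/-- the starts of the parts -/
def RR (l : List ℕ) (t : ℕ) : Finset ℕ :=
  (Finset.range t).filter fun i => ¬ (0 < i ∧ nx l (i - 1) = i)

theorem RR_ch (l : List ℕ) (t : ℕ) : ∀ i < t, i ∉ RR l t → 0 < i ∧ nx l (i - 1) = i := by
  intro i hi h
  by_contra h'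
  exact h (Finset.mem_filter.2 ⟨Finset.mem_range.2 hi, h'⟩)

theorem fin (t : ℕ) (h1 : 1 ≤ t) (h6 : t ≤ 6) : (CL t).Nodup ∧ (OP t).Nodup ∧
    (∀ l ∈ CL t, (RR l t).card = l.length ∧ ∀ i < t, nx l i < t) ∧
    ∀ l ∈ OP t, (RR l t).card = l.length ∧ ∀ i < t, nx l i < t := by
  interval_cases t <;> decide

theorem sum_le (L : List (List ℕ)) (hL : L.Nodup) (f : List ℕ → ℕ) (w k : ℕ)
    (h : ∀ l ∈ L, f l ≤ w ^ l.length * k) :
    ∑ l ∈ L.toFinset, f l ≤ (L.map fun l => w ^ l.length).sum * k := by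
  rw [← List.sum_toFinset _ hL, Finset.sum_mul]
  exact Finset.sum_le_sum fun l hl => h l (List.mem_toFinset.1 hl)

theorem enum {β : Type} [DecidableEq β] (T : Finset β) (h1 : 1 ≤ T.card) : ∃ a : ℕ → β,
    Set.InjOn a (Set.Iio T.card) ∧ (Finset.range T.card).image a = T := by
  obtain ⟨b0, -⟩ := Finset.card_pos.1 h1
  have hi : Set.InjOn (fun i => if h : i < T.card then (T.equivFin.symm ⟨i, h⟩).1 else b0)
      (Set.Iio T.card) := by
    intro i hi j hj e
    have hi' : i < T.card := hi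
    have hj' : j < T.card := hj
    simp only [hi', hj', dif_pos] at e
    exact congrArg Fin.val (T.equivFin.symm.injective (Subtype.ext e))
  refine ⟨_, hi, Finset.eq_of_subset_of_card_le (fun b hb => ?_) ?_⟩
  · obtain ⟨i, hi, rfl⟩ := Finset.mem_image.1 hb
    simp only [Finset.mem_range.1 hi, dif_pos]
    exact Subtype.prop _
  · rw [Finset.card_image_of_injOn (by simpa using hi), Finset.card_range]

theorem jobTOP : KB → TY → PC → PO → PO1 → TOP := by
  intro hK hT hC hO hO1 Γ α β _ _ _ _ _ w S T k1 k2 h1 h6 hM hk1 hk2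
  obtain ⟨a, ha, haT⟩ := enum T h1
  obtain ⟨n1, n2, f1, f2⟩ := fin T.card h1 h6
  set t := T.card with ht
  let XC : List ℕ → Set Γ := fun l => {x | ∀ i < t, S.φ x (a i) = a (nx l i)}
  let XO : List ℕ → Set Γ := fun l =>
    {x | (∀ i, i + 1 < t → S.φ x (a i) = a (nx l i)) ∧ ∀ i < t, S.φ x (a (t - 1)) ≠ a i}
  have cov : kk Γ ≤ ∑ l ∈ (CL t).toFinset, ncl (XC l) + ∑ l ∈ (OP t).toFinset, ncl (XO l) := by
    have := hK.cov Γ (List ℕ ⊕ List ℕ) ((CL t).toFinset.disjSum (OP t).toFinset)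
      (Sum.elim XC XO) (fun x => ?_)
    · rwa [Finset.sum_disjSum] at this
    obtain ⟨a', ha', hp⟩ := hT β (S.φ x) t h1 h6 (Finset.card_le_univ T)
    let e1 : Fin t ↪ β := ⟨fun i => a' i, fun i j e => Fin.ext (ha' i.2 j.2 e)⟩
    let e2 : Fin t ↪ β := ⟨fun i => a i, fun i j e => Fin.ext (ha i.2 j.2 e)⟩
    obtain ⟨⟨_, γ, hγ0, rfl⟩, hg⟩ := exists_smul_eq (S.im ⊤) e1 e2
    have hγ : ∀ i < t, S.φ γ (a' i) = a i := fun i hi =>
      DFunLike.congr_fun hg (⟨i, hi⟩ : Fin t)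
    have hy : ∀ i < t, S.φ (γ * x * γ⁻¹) (a i) = S.φ γ (S.φ x (a' i)) := fun i hi => by
      rw [← hγ i hi, ← Perm.mul_apply, ← map_mul, inv_mul_cancel_right, map_mul, Perm.mul_apply]
    have hc : IsConj x (γ * x * γ⁻¹) := isConj_iff.2 ⟨γ, rfl⟩
    rcases hp with ⟨l, hl, h⟩ | ⟨l, hl, h, h'⟩
    · refine ⟨Sum.inl l, Finset.inl_mem_disjSum.2 (List.mem_toFinset.2 hl), _, fun i hi => ?_, hc⟩
      rw [hy i hi, h i hi, hγ _ ((f1 l hl).2 i hi)]
    · refine ⟨Sum.inr l, Finset.inr_mem_disjSum.2 (List.mem_toFinset.2 hl), _,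
        ⟨fun i hi => ?_, fun i hi e => ?_⟩, hc⟩
      · rw [hy i (by omega), h i hi, hγ _ ((f2 l hl).2 i (by omega))]
      · rw [hy _ (by omega), ← hγ i hi] at e
        exact h' i hi ((S.φ γ).injective e)
  have c1 : ∑ l ∈ (CL t).toFinset, ncl (XC l) ≤ cA w t * k1 := sum_le _ n1 _ _ _ fun l hl => by
    have := hC Γ α β w S t a (nx l) (RR l t) ha (f1 l hl).2 (RR_ch l t)
    rw [haT, (f1 l hl).1] at this
    exact this.trans (Nat.mul_le_mul_left _ hk1)
  refine ⟨cov.trans (Nat.add_le_add c1 (sum_le _ n2 _ _ _ fun l hl => ?_)), fun m hw hm =>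
    cov.trans (Nat.add_le_add c1 (sum_le _ n2 _ _ _ fun l hl => ?_))⟩
  · have := hO Γ α β w S t a (nx l) (RR l t) h1 ha (f2 l hl).2 (RR_ch l t)
    rw [haT, (f2 l hl).1] at this
    refine this.trans (Nat.mul_le_mul_left _ ?_)
    have := Finset.sum_le_card_nsmul Tᶜ (fun d => kc (S.fb ⊤ (insert d T))) k2
      fun d hd => hk2 d (Finset.mem_compl.1 hd)
    rwa [Finset.card_compl, smul_eq_mul] at this
  · have := hO1 Γ α β w S t m a (nx l) hw h1 ha (f2 l hl).2 (by rw [haT]; exact hm)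
    rw [haT] at this
    rw [hw, one_pow, one_mul]
    exact this.trans (Nat.add_le_add_left (Nat.mul_le_mul_left _ hk1) _)

end H73.KpT
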