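import Cfsg.Agent.H20.LD4Spec
import Cfsg.Agent.H55.Basic

/-! LD4-MEv2: the configuration `C2` in `L₃(q)`, `U₃(q)`, `PSp₄(q)` for even `q`. -/

set_option autoImplicit false

namespace H73.LD

open Cfsg Matrix H20.LD Subgroup
open scoped MatrixGroups

theorem c2_of {G : Type*} [Group G] {h s t : G} {N : ℕ} (hN : Odd N) (e : h ^ N = 1)
    (hs : s * s = 1) (ht : t * t = 1) (c1 : Commute h (t * h * t)) (c2 : Commute s h)
    (c3 : ¬ Commute s (t * h * t)) : C2 (G ⧸ center G) := by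
  have k : ∀ x y : G, ¬ Commute x y → (x : G ⧸ center G) ≠ 1 := fun x y hc e =>
    hc (mem_center_iff.1 ((QuotientGroup.eq_one_iff x).1 e) y).symm
  have n1 : ¬ Commute s (h * (t * h * t)) := fun c => c3 (by simpa using c2.inv_right.mul_right c)
  have n2 : ¬ Commute t h := fun c => c3 (by rwa [c.eq, mul_assoc, ht, mul_one])
  let f := QuotientGroup.mk' (center G)
  refine ⟨f h, f (t * h * t), f s, f t, hN.of_dvd_nat (orderOf_dvd_of_pow_eq_one (by
    rw [← map_pow, e, map_one])), f.map_isConj (isConj_iff.2 ⟨t, by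
      rw [inv_eq_of_mul_eq_one_right ht]⟩), c1.map f, k _ _ fun c => n2 c.symm, fun e => ?_,
    k _ _ fun c => n1 c.symm, k _ _ n1, by rw [← map_mul, hs, map_one], c2.map f, k _ _ n2,
    by rw [← map_mul, ht, map_one], Commute.map (y := h * (t * h * t)) ?_ f⟩
  · refine k (h⁻¹ * (t * h * t)) s (fun c => c3 ?_) (QuotientGroup.eq.1 e.symm |> (QuotientGroup.eq_one_iff _).2)
    simpa using c2.mul_right c.symm
  · show t * (h * (t * h * t)) = h * (t * h * t) * t
    rw [c1.eq, mul_assoc (t * h * t), ← mul_assoc t (t * h * t), ← mul_assoc t, ← mul_assoc t, ht]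
    simpa [mul_assoc, ht] using congrArg (· * t) c1.eq

theorem exists_root {K : Type} [Field K] [Fintype K] {n : ℕ} (h : n ∣ Fintype.card K - 1) :
    ∃ a : K, orderOf a = n := by
  classical
  have := IsCyclic.card_orderOf_eq_totient (α := Kˣ) (d := n) (by rwa [Fintype.card_units])
  have h1 : 1 < Fintype.card K := Fintype.one_lt_card
  obtain ⟨a, ha⟩ := Finset.card_pos.1 (this ▸ Nat.totient_pos.2 (Nat.pos_of_dvd_of_pos h (by omega)))
  exact ⟨a, by rw [orderOf_units]; simpa using ha⟩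

section
variable {K : Type} [Field K] [CharP K 2]

def dg (a : K) (ha : a ≠ 0) : SL(3, K) :=
  ⟨diagonal ![a, a, a⁻¹ ^ 2], by simp [Fin.prod_univ_three]; field_simp⟩
def p01 : SL(3, K) := ⟨!![0, 1, 0; 1, 0, 0; 0, 0, 1], by simp [det_fin_three, CharTwo.neg_eq]⟩
def p12 : SL(3, K) := ⟨!![1, 0, 0; 0, 0, 1; 0, 1, 0], by simp [det_fin_three, CharTwo.neg_eq]⟩

variable {a : K} (ha : a ≠ 0)

theorem dg_pow {N : ℕ} (e : a ^ N = 1) : dg a ha ^ N = 1 := Subtype.ext (by
  refine (Matrix.SpecialLinearGroup.coe_pow _ _).trans ?_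
  show _ = (1 : Matrix _ _ K)
  ext i j
  fin_cases i <;> fin_cases j <;> simp [dg, diagonal_pow, e, pow_right_comm a 2 N])

theorem p01_sq : (p01 * p01 : SL(3, K)) = 1 := Subtype.ext (by
  show p01.1 * p01.1 = (1 : Matrix _ _ K)
  ext i j
  fin_cases i <;> fin_cases j <;> simp [p01, mul_apply, Fin.sum_univ_three])

theorem p12_sq : (p12 * p12 : SL(3, K)) = 1 := Subtype.ext (by
  show p12.1 * p12.1 = (1 : Matrix _ _ K)
  ext i j
  fin_cases i <;> fin_cases j <;> simp [p12, mul_apply, Fin.sum_univ_three])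

theorem dg_conj : (p12 * dg a ha * p12).1 = diagonal ![a, a⁻¹ ^ 2, a] := by
  show p12.1 * (dg a ha).1 * p12.1 = _
  ext i j
  fin_cases i <;> fin_cases j <;> simp [p12, dg, mul_apply, Fin.sum_univ_three, vecMul_diagonal]

theorem dg_c1 : Commute (dg a ha) (p12 * dg a ha * p12) := Subtype.ext (by
  show (dg a ha).1 * (p12 * dg a ha * p12).1 = (p12 * dg a ha * p12).1 * (dg a ha).1
  rw [dg_conj]
  exact (commute_diagonal _ _).eq)

theorem dg_c2 : Commute p01 (dg a ha) := Subtype.ext (by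
  show p01.1 * (dg a ha).1 = (dg a ha).1 * p01.1
  ext i j
  fin_cases i <;> fin_cases j <;> simp [p01, dg, mul_apply, Fin.sum_univ_three])

theorem dg_c3 (h3 : a ^ 3 ≠ 1) : ¬ Commute p01 (p12 * dg a ha * p12) := fun c => by
  have : p01.1 * (p12 * dg a ha * p12).1 = (p12 * dg a ha * p12).1 * p01.1 :=
    congrArg Subtype.val c.eq
  rw [dg_conj] at this
  have := congrFun (congrFun this 0) 1
  simp [p01, mul_apply, Fin.sum_univ_three] at this
  field_simp at this
  exact h3 this.symm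

include ha in
theorem c2_sl {N : ℕ} (hN : Odd N) (e : a ^ N = 1) (h3 : a ^ 3 ≠ 1) : C2 PSL(3, K) :=
  c2_of hN (dg_pow ha e) p01_sq p12_sq (dg_c1 ha) (dg_c2 ha) (dg_c3 ha h3)

include ha in
theorem c2_su {q N : ℕ} (hN : Odd N) (e : a ^ N = 1) (h3 : a ^ 3 ≠ 1) (hq : a ^ (q + 1) = 1) :
    C2 (PSU 3 K q) := by
  have m1 : dg a ha ∈ SU 3 K q := fun u v => by
    have h1 : a * a ^ q = 1 := by rw [← hq]; ring
    have h2 : a⁻¹ ^ 2 * (a⁻¹ ^ 2) ^ q = 1 := by
      rw [← pow_succ', ← pow_mul, mul_comm, pow_mul, inv_pow, hq, inv_one, one_pow]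
    show hermForm 3 K q (diagonal _ *ᵥ u) (diagonal _ *ᵥ v) = _
    simp only [hermForm, Fin.sum_univ_three, mulVec_diagonal, mul_pow, cons_val]
    linear_combination (u 0 * v 0 ^ q + u 1 * v 1 ^ q) * h1 + u 2 * v 2 ^ q * h2
  have m2 : p01 ∈ SU 3 K q := fun u v => by
    show hermForm 3 K q (p01.1 *ᵥ u) (p01.1 *ᵥ v) = _
    simp [hermForm, Fin.sum_univ_three, p01, mulVec, dotProduct, add_comm]
  have m3 : p12 ∈ SU 3 K q := fun u v => by
    show hermForm 3 K q (p12.1 *ᵥ u) (p12.1 *ᵥ v) = _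
    simp [hermForm, Fin.sum_univ_three, p12, mulVec, dotProduct, add_right_comm]
  exact c2_of (h := ⟨_, m1⟩) (s := ⟨_, m2⟩) (t := ⟨_, m3⟩) hN (Subtype.ext (dg_pow ha e))
    (Subtype.ext p01_sq) (Subtype.ext p12_sq) (Subtype.ext (dg_c1 ha)) (Subtype.ext (dg_c2 ha))
    fun c => dg_c3 ha h3 (congrArg Subtype.val c.eq)

abbrev S4 (K : Type) [Field K] := symplecticGroup (Fin 2) K

omit [CharP K 2] in
def sd (a : K) (ha : a ≠ 0) : S4 K := ⟨diagonal (Sum.elim ![a, 1] ![a⁻¹, 1]), by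
  rw [SymplecticGroup.mem_iff]
  ext (i | i) (j | j) <;> fin_cases i <;> fin_cases j <;> simp [J, ha]⟩

def ss : S4 K := ⟨fromBlocks 1 !![0, 0; 0, 1] 0 1, by
  rw [SymplecticGroup.mem_iff]
  ext (i | i) (j | j) <;> fin_cases i <;> fin_cases j <;>
    simp [J, fromBlocks_multiply, fromBlocks_transpose]⟩

def st : S4 K := ⟨fromBlocks !![0, 1; 1, 0] 0 0 !![0, 1; 1, 0], by
  rw [SymplecticGroup.mem_iff]
  ext (i | i) (j | j) <;> fin_cases i <;> fin_cases j <;>
    simp [J, fromBlocks_multiply, fromBlocks_transpose, mul_apply]⟩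

include ha in
theorem c2_sp {N : ℕ} (hN : Odd N) (e : a ^ N = 1) (h2 : a ^ 2 ≠ 1) : C2 (PSp 2 K) := by
  have cj : (st * sd a ha * st).1 = diagonal (Sum.elim ![1, a] ![1, a⁻¹]) := by
    show st.1 * (sd a ha).1 * st.1 = _
    ext (i | i) (j | j) <;> fin_cases i <;> fin_cases j <;> simp [st, sd, mul_apply]
  refine c2_of (h := sd a ha) (s := ss) (t := st) hN (Subtype.ext ?_) (Subtype.ext ?_)
    (Subtype.ext ?_) (Subtype.ext ?_) (Subtype.ext ?_) fun c => ?_
  · rw [SubmonoidClass.coe_pow]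
    ext (i | i) (j | j) <;> fin_cases i <;> fin_cases j <;> simp [sd, diagonal_pow, e]
  · show ss.1 * ss.1 = 1
    ext (i | i) (j | j) <;> fin_cases i <;> fin_cases j <;> simp [ss, mul_apply, CharTwo.add_self_eq_zero]
  · show st.1 * st.1 = 1
    ext (i | i) (j | j) <;> fin_cases i <;> fin_cases j <;> simp [st, mul_apply]
  · show (sd a ha).1 * (st * sd a ha * st).1 = (st * sd a ha * st).1 * (sd a ha).1
    rw [cj]
    exact (commute_diagonal _ _).eq
  · show ss.1 * (sd a ha).1 = (sd a ha).1 * ss.1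
    ext (i | i) (j | j) <;> fin_cases i <;> fin_cases j <;> simp [ss, sd]
  · have : ss.1 * (st * sd a ha * st).1 = (st * sd a ha * st).1 * ss.1 := congrArg Subtype.val c.eq
    rw [cj] at this
    have := congrFun (congrFun this (.inl 1)) (.inr 1)
    simp [ss] at this
    exact h2 (by rw [sq]; nth_rw 1 [← this]; exact inv_mul_cancel₀ ha)

end

theorem jobMEv2 : JobMEv2 := by
  intro K _ _ hK
  have : CharP K 2 := ringChar.of_eq (FiniteField.even_card_iff_char_two.2 (Nat.even_iff.1 hK))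
  have h1 : 1 < Fintype.card K := Fintype.one_lt_card
  have hN : Odd (Fintype.card K - 1) := Nat.Even.sub_odd h1.le hK odd_one
  have k : ∀ n m, n ∣ Fintype.card K - 1 → 0 < m → m < n → ∃ a : K, a ≠ 0 ∧
      a ^ (Fintype.card K - 1) = 1 ∧ a ^ m ≠ 1 ∧ a ^ n = 1 := fun n m h h0 hm => by
    obtain ⟨a, rfl⟩ := exists_root h
    refine ⟨a, ?_, orderOf_dvd_iff_pow_eq_one.1 h, pow_ne_one_of_lt_orderOf h0.ne' hm,
      pow_orderOf_eq_one a⟩
    rintro rfl
    simp at hm
  refine ⟨fun h => ?_, fun h => ?_, fun q hq h => ?_, fun h => ?_⟩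
  · obtain ⟨a, h0, h1, h2, -⟩ := k _ 3 dvd_rfl (by omega) (by omega)
    exact c2_sl h0 hN h1 h2
  · obtain ⟨a, h0, h1, h2, -⟩ := k _ 2 dvd_rfl (by omega) (by omega)
    exact c2_sp h0 hN h1 h2
  · obtain ⟨a, h0, h1, h2, h3⟩ := k (q + 1) 3 (by rw [hq]; exact ⟨q - 1, Nat.sq_sub_sq q 1⟩)
      (by omega) (by omega)
    exact c2_su h0 hN h1 h2 h3
  · have c : center SL(3, ZMod 2) = ⊥ := eq_bot_iff.2 fun A hA => by
      obtain ⟨r, h1, h2⟩ := Matrix.SpecialLinearGroup.mem_center_iff.1 hA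
      obtain rfl : r = 1 := (by decide : ∀ r : ZMod 2, r ^ 3 = 1 → r = 1) r h1
      exact Subtype.ext (by rw [← h2, map_one]; rfl)
    exact ⟨(H55.pslCongr (FiniteField.ringEquivOfCardEq (by rw [h, ZMod.card]))).trans
      ((QuotientGroup.quotientMulEquivOfEq c).trans QuotientGroup.quotientBot)⟩

end H73.LD
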