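import Cfsg.Agent.H73.GTop

/-! Projective representations checked on codes, and the covers that they define. -/

namespace H73

open H71 (Tr nth evw linv gen maskL winv mkRule)
open scoped commutatorElement

variable {G0 M G : Type*} [Group G0] [Monoid M] [Group G] {S : Sys G0 M}

/-- relator number `i` is `a b⁻¹` for the triple number `i`, and `a = z b`. -/
noncomputable def relsZ (mul : ℕ → ℕ → ℕ) (zc : ℕ → ℕ) (W CV t m : ℕ) (R : List (List ℕ))
    (es : List (WE × WE × ℕ)) : Bool :=
  allB R.length (fun i => (fun p : WE × WE × ℕ => band (band (inM m p.1.flat) (inM m p.2.1.flat))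
    (band (beqL (nth R [] i) (p.1.flat ++ winv t p.2.1.flat))
      (Nat.beq (mul (zc p.2.2) (p.2.1.ev mul W CV)) (p.1.ev mul W CV)))) (nth es (.l 0, .l 0, 0) i))

theorem relsZ_spec {W CV t : ℕ} {cv : ℕ → G0} (hv : ∀ l, cv (linv t l) = (cv l)⁻¹) {L : List ℕ}
    (h : ∀ l ∈ L, S.R (get2 W CV l) (cv l)) {R : List (List ℕ)} {es : List (WE × WE × ℕ)}
    {zc : ℕ → ℕ} (f : G0 →* G) (hz : ∀ s g, S.R (zc s) g → f g = 1)
    (he : relsZ S.mul zc W CV t (maskL L) R es = true) : ∀ r ∈ R, evw (fun l => f (cv l)) r = 1 := by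
  intro r hr
  obtain ⟨i, hi, rfl⟩ := exists_nth [] hr
  obtain ⟨a, b⟩ := band_spec.1 (allB_spec he i hi)
  obtain ⟨a1, a2⟩ := band_spec.1 a
  obtain ⟨b1, b2⟩ := band_spec.1 b
  rw [← H71.map_evw, beqL_spec b1, H71.evw_append, H71.evw_winv hv]
  exact hz _ _ ((WE.ev_spec h (inM_spec a2)).cancel_right
    (by rw [beq_eq b2]; exact WE.ev_spec h (inM_spec a1)))

theorem MP.zc_center (P : MP) [Fact P.p.Prime] (h : P.ok = true) (s : ℕ)
    (g : GL (Fin P.n) (ZMod P.p)) (hg : (P.sys h).R (P.zc s) g) :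
    QuotientGroup.mk' (Subgroup.center (GL (Fin P.n) (ZMod P.p))) g = 1 := by
  have h2 := (Fact.out : P.p.Prime).two_le
  have h3 : s % (P.p - 1) + 1 < P.p := by
    have := Nat.mod_lt s (show 0 < P.p - 1 by omega); omega
  rw [QuotientGroup.mk'_apply, QuotientGroup.eq_one_iff,
    Matrix.GeneralLinearGroup.mem_center_iff_val_mem_range_scalar]
  exact ⟨_, (MP.dec_smul_one h (lt_of_lt_of_le h3 (MP.ok_spec h).2.2.2.1)).symm.trans hg⟩

/-- a non-trivial projective representation of a non-abelian simple group gives a central cover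
in the special linear group. -/
theorem cover_of_proj {n R Q : Type*} [Fintype n] [DecidableEq n] [CommRing R] [Group Q]
    [IsSimpleGroup Q] [Finite Q] (hQ : ¬ (Nat.card Q).Prime)
    (φ : Q →* GL n R ⧸ Subgroup.center (GL n R)) {a : Q} (ha : φ a ≠ 1) :
    ∃ H : Subgroup (Matrix.SpecialLinearGroup n R), Nat.card (Subgroup.center H) =
      Nat.card (Subgroup.center (Matrix.SpecialLinearGroup n R)) ∧
      Nonempty (H ⧸ Subgroup.center H ≃* Q) := by
  have hφ : Function.Injective φ := by
    rw [← MonoidHom.ker_eq_bot_iff]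
    exact (IsSimpleGroup.eq_bot_or_eq_top_of_normal φ.ker inferInstance).resolve_right fun h =>
      ha (h ▸ Subgroup.mem_top a : a ∈ φ.ker)
  have hc0 : Subgroup.center Q ≠ ⊤ := fun h => hQ (by
    letI := Group.commGroupOfCenterEqTop h
    exact IsSimpleGroup.prime_card)
  have hc : Subgroup.center Q = ⊥ :=
    (IsSimpleGroup.eq_bot_or_eq_top_of_normal _ inferInstance).resolve_right hc0
  have hd : commutator Q = ⊤ :=
    (IsSimpleGroup.eq_bot_or_eq_top_of_normal _ inferInstance).resolve_left fun h =>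
      hc0 ((commutator_eq_bot_iff_center_eq_top Q).1 h)
  let τ := (QuotientGroup.mk' (Subgroup.center (GL n R))).comp Matrix.SpecialLinearGroup.toGL
  let H := φ.range.comap τ
  let ψ : H →* Q := (MonoidHom.ofInjective hφ).symm.toMonoidHom.comp
    ((τ.comp H.subtype).codRestrict _ fun h => h.2)
  have hψ : ∀ h : H, φ (ψ h) = τ h := fun h =>
    congrArg Subtype.val ((MonoidHom.ofInjective hφ).apply_symm_apply ⟨τ h, h.2⟩)
  have hs : Function.Surjective ψ := by
    rw [← MonoidHom.range_eq_top, eq_top_iff, ← hd, commutator, Subgroup.commutator_le]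
    intro p _ q _
    obtain ⟨A, hA⟩ := QuotientGroup.mk'_surjective _ (φ p)
    obtain ⟨B, hB⟩ := QuotientGroup.mk'_surjective _ (φ q)
    have h1 : Matrix.GeneralLinearGroup.det ⁅A, B⁆ = 1 := by
      rw [map_commutatorElement, commutatorElement_eq_one_iff_mul_comm, mul_comm]
    let C : Matrix.SpecialLinearGroup n R := ⟨((⁅A, B⁆ : GL n R) : Matrix n n R), congrArg Units.val h1⟩
    have h2 : τ C = φ ⁅p, q⁆ := by
      rw [map_commutatorElement, ← hA, ← hB, ← map_commutatorElement]
      exact congrArg (QuotientGroup.mk' (Subgroup.center (GL n R))) (Units.ext rfl)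
    exact ⟨⟨C, _, h2.symm⟩, hφ (by rw [hψ, h2])⟩
  have hz : ∀ z, τ z = 1 ↔ z ∈ Subgroup.center (Matrix.SpecialLinearGroup n R) := fun z => by
    rw [← Matrix.SpecialLinearGroup.toGL_mem_center_iff]
    exact QuotientGroup.eq_one_iff _
  have hk : ψ.ker = (Subgroup.center (Matrix.SpecialLinearGroup n R)).subgroupOf H := by
    ext h
    rw [MonoidHom.mem_ker, ← hφ.eq_iff, hψ, map_one, hz, Subgroup.mem_subgroupOf]
  have he : Subgroup.center H = ψ.ker := by
    apply le_antisymm
    · intro h hh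
      rw [MonoidHom.mem_ker, ← Subgroup.mem_bot, ← hc, Subgroup.mem_center_iff]
      intro q
      obtain ⟨k, rfl⟩ := hs q
      rw [← map_mul, ← map_mul, Subgroup.mem_center_iff.1 hh k]
    · intro h hh
      rw [hk] at hh
      exact Subgroup.mem_center_iff.2 fun k => Subtype.ext (Subgroup.mem_center_iff.1 hh k)
  refine ⟨H, ?_, ⟨(QuotientGroup.quotientMulEquivOfEq he).trans
    (QuotientGroup.quotientKerEquivOfSurjective ψ hs)⟩⟩
  rw [he, hk]
  refine Nat.card_congr (Subgroup.subgroupOfEquivOfLe fun z h => ?_).toEquiv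
  show τ z ∈ φ.range
  rw [(hz z).2 h]
  exact one_mem _

end H73
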