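/- PS tower, slot UNI: separating sets of a uniprimitive group are large. -/
import Cfsg.Agent.H39.PSSpec

set_option autoImplicit false
set_option linter.unusedSectionVars false

namespace H73.PsUni
open Equiv MulAction Finset H39.PS Relation

universe u
variable {α : Type u} [Fintype α] [DecidableEq α] {G : Subgroup (Perm α)} {a b c d : α}
  {g : Perm α} {P Q : α → Prop} {Y : α → α → Prop} {x : ℕ}

open Classical in
noncomputable def fl (P : α → Prop) : Finset α := univ.filter P

@[simp] theorem mem_fl : c ∈ fl P ↔ P c := by simp [fl]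

theorem fl_le (g : Perm α) (h : ∀ c, P c → Q (g c)) : (fl P).card ≤ (fl Q).card :=
  card_le_card_of_injOn g (fun c hc => by simpa using h c (by simpa using hc)) g.injective.injOn

/-- `a` and `b` lie in one orbit of the stabiliser of `c`. -/
def E (G : Subgroup (Perm α)) (c a b : α) : Prop := ∃ g ∈ G, g c = c ∧ g a = b

theorem E.rfl : E G c a a := ⟨1, one_mem _, _root_.rfl, _root_.rfl⟩

theorem E.symm (h : E G c a b) : E G c b a := by
  obtain ⟨g, hg, h1, rfl⟩ := h
  exact ⟨g⁻¹, inv_mem hg, Perm.inv_eq_iff_eq.2 h1.symm, by simp⟩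

theorem E.trans (h : E G c a b) (k : E G c b d) : E G c a d := by
  obtain ⟨g, hg, h1, rfl⟩ := h
  obtain ⟨f, hf, h2, rfl⟩ := k
  exact ⟨f * g, mul_mem hf hg, by simp [h1, h2], _root_.rfl⟩

theorem E.map (hg : g ∈ G) (h : E G c a b) : E G (g c) (g a) (g b) := by
  obtain ⟨f, hf, h1, rfl⟩ := h
  exact ⟨g * f * g⁻¹, mul_mem (mul_mem hg hf) (inv_mem hg), by simp [h1], by simp⟩

theorem E.left (h : E G a a b) : a = b := by
  obtain ⟨g, -, h1, h2⟩ := h
  exact h1.symm.trans h2

noncomputable def D (G : Subgroup (Perm α)) (a b : α) : Finset α := fl fun c => ¬ E G c a b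

theorem mem_D : c ∈ D G a b ↔ ¬ E G c a b := mem_fl

theorem D_comm : D G a b = D G b a := by
  ext c
  exact mem_D.trans ((not_congr ⟨E.symm, E.symm⟩).trans mem_D.symm)

theorem D_map (hg : g ∈ G) : (D G (g a) (g b)).card = (D G a b).card :=
  le_antisymm (fl_le g⁻¹ fun c h k => h (by simpa using k.map hg))
    (fl_le g fun c h k => h (by simpa using k.map (inv_mem hg)))

theorem D_tri (a b c : α) : (D G a c).card ≤ (D G a b).card + (D G b c).card := by
  refine (card_le_card fun d hd => ?_).trans (card_union_le _ _)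
  rw [mem_union, mem_D, mem_D, ← not_and_or]
  exact fun h => mem_D.1 hd (h.1.trans h.2)

def Iv (G : Subgroup (Perm α)) (Y : α → α → Prop) : Prop := ∀ g ∈ G, ∀ a b, Y a b → Y (g a) (g b)

def X (G : Subgroup (Perm α)) (x : ℕ) (a b : α) : Prop := a ≠ b ∧ (D G a b).card = x

theorem X.symm (h : X G x a b) : X G x b a := ⟨h.1.symm, by rw [D_comm]; exact h.2⟩

theorem X_iv : Iv G (X G x) := fun g hg _ _ h => ⟨g.injective.ne h.1, (D_map hg).trans h.2⟩

variable [IsPreprimitive G α]

theorem tr (a b : α) : ∃ g ∈ G, g a = b :=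
  let ⟨g, h⟩ := exists_smul_eq G a b
  ⟨g, g.2, h⟩

theorem Iv.val (hY : Iv G Y) (a b : α) : (fl (Y a)).card ≤ (fl (Y b)).card := by
  obtain ⟨g, hg, rfl⟩ := tr (G := G) a b
  exact fl_le g fun c => hY g hg _ _

theorem Iv.reach (hY : Iv G Y) (hab : Y a b) (hne : a ≠ b) (c d : α) : ReflTransGen Y c d := by
  have iv : Iv G (ReflTransGen Y) := fun g hg _ _ h => ReflTransGen.lift g (hY g hg) _ _ h
  have sy : ∀ c d, Y c d → ReflTransGen Y d c := fun c d h => by
    obtain ⟨g, hg, rfl⟩ := tr (G := G) c d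
    have key : ∀ j : ℕ, ReflTransGen Y (g c) ((g ^ (j + 1)) c) := fun j => by
      induction j with
      | zero => rw [zero_add, pow_one]
      | succ j ih =>
        refine ih.tail ?_
        rw [pow_succ g (j + 1)]
        exact hY _ (pow_mem hg _) _ _ h
    have := key (orderOf g - 1)
    rwa [Nat.sub_add_cancel (orderOf_pos g), pow_orderOf_eq_one] at this
  have sy' : ∀ c d, ReflTransGen Y c d → ReflTransGen Y d c := fun c d h => by
    induction h with
    | refl => exact .refl
    | tail _ h ih => exact (sy _ _ h).trans ih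
  have bl : IsBlock G {d | ReflTransGen Y a d} := by
    refine isBlock_iff_smul_eq_of_mem.2 fun g c h1 h2 => ?_
    have h3 : ReflTransGen Y a (g.1 a) := ReflTransGen.trans h2 (iv _ g.2 _ _ (sy' _ _ h1))
    ext d
    rw [Set.mem_smul_set_iff_inv_smul_mem]
    refine ⟨fun h => h3.trans ?_, fun h => ?_⟩
    · have := iv _ g.2 _ _ h
      rwa [show g.1 (g⁻¹ • d) = d from smul_inv_smul g d] at this
    · have := iv _ (inv_mem g.2) _ _ ((sy' _ _ h3).trans h)
      rwa [show g.1⁻¹ (g.1 a) = a from inv_smul_smul g a] at this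
  rcases IsPreprimitive.isTrivialBlock_of_isBlock bl with h | h
  · exact absurd (h ReflTransGen.refl (ReflTransGen.single hab)) hne
  · exact (sy' _ _ (h.ge (Set.mem_univ c))).trans (h.ge (Set.mem_univ d))

theorem Iv.cl (hY : Iv G Y) (hab : Y a b) (hne : a ≠ b) (hc : P c) (hd : ¬ P d) :
    ∃ e f, P e ∧ Y e f ∧ ¬ P f := by
  by_contra h
  push Not at h
  apply hd
  induction hY.reach hab hne c d with
  | refl => exact hc
  | tail _ k ih => exact h _ _ (by by_contra h'; exact h' (ih h')) k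

theorem card_cover {s t : Finset α} {f : α → Finset α} {m : ℕ} (h : ∀ c ∈ s, ∃ b ∈ t, c ∈ f b)
    (k : ∀ b ∈ t, (f b).card ≤ m) : s.card ≤ t.card * m :=
  (card_le_card fun c hc => mem_biUnion.2 (h c hc)).trans (card_biUnion_le_card_mul _ _ _ k)

theorem step1 (h : X G x a b) (c : α) :
    Fintype.card α - 1 ≤ (fl (X G x c)).card * (x - 1) := by
  rw [← card_univ, ← card_erase_of_mem (mem_univ c)]
  refine card_cover (f := fun e => (D G c e).erase c) (fun d hd => ?_) fun e he => ?_
  · have hd' := ne_of_mem_erase hd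
    obtain ⟨_, f, ⟨g, hg, h1, rfl⟩, h2, h3⟩ := X_iv.cl h h.1 (P := E G d c) (d := d) E.rfl
      fun k => hd' k.symm.left
    refine ⟨g⁻¹ f, mem_fl.2 (by simpa using X_iv _ (inv_mem hg) _ _ h2),
      mem_erase.2 ⟨hd', mem_D.2 fun k => h3 (k.trans ⟨g, hg, h1, by simp⟩)⟩⟩
  · rw [card_erase_of_mem (mem_D.2 fun k => (mem_fl.1 he).1 k.left), (mem_fl.1 he).2]

theorem step2 (h : X G x a b) (hd : ¬ (d = c ∨ X G x c d ∨ ∃ e, X G x c e ∧ X G x e d)) :
    2 * Fintype.card α ≤ 3 * x ^ 2 := by
  obtain ⟨e, f, h1, h2, h3⟩ := X_iv.cl h h.1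
    (P := fun d => d = c ∨ X G x c d ∨ ∃ e, X G x c e ∧ X G x e d) (c := c) (.inl rfl) hd
  push Not at h3
  obtain ⟨n1, n2, n3⟩ := h3
  rcases h1 with rfl | h1 | ⟨p, h0, h1⟩
  · exact absurd h2 n2
  · exact absurd h2 (n3 _ h1)
  have k1 := D_tri (G := G) c p f
  have k2 := D_tri (G := G) p e f
  rw [h0.2] at k1
  rw [h1.2, h2.2] at k2
  have k3 : (insert c (fl (X G x c)) ∪ insert f (fl (X G x f))).card ≤ (D G c f).card := by
    refine card_le_card fun q hq => mem_D.2 fun k => ?_
    simp only [mem_union, mem_insert, mem_fl] at hq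
    rcases hq with (rfl | hq) | rfl | hq
    · exact n1 k.left.symm
    · obtain ⟨g, hg, k7, rfl⟩ := k
      exact n3 _ hq (by simpa only [k7] using X_iv g hg _ _ hq.symm)
    · exact n1 k.symm.left
    · obtain ⟨g, hg, k7, rfl⟩ := k.symm
      exact n3 q (by simpa only [k7] using X_iv g hg _ _ hq) hq.symm
  rw [card_union_of_disjoint, card_insert_of_notMem fun k => (mem_fl.1 k).1 rfl,
    card_insert_of_notMem fun k => (mem_fl.1 k).1 rfl] at k3
  · have k4 := step1 h c
    have k5 := (X_iv (G := G) (x := x)).val c f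
    obtain ⟨y, rfl⟩ : ∃ y, x = y + 1 := ⟨x - 1, by omega⟩
    rw [Nat.add_sub_cancel] at k4
    have k6 : 2 * (fl (X G (y + 1) c)).card * y ≤ (3 * y + 1) * y :=
      Nat.mul_le_mul_right _ (by omega)
    have : Fintype.card α ≤ (fl (X G (y + 1) c)).card * y + 1 := by omega
    nlinarith
  · refine disjoint_left.2 fun q h1 h2 => ?_
    simp only [mem_insert, mem_fl] at h1 h2
    rcases h1 with rfl | h1 <;> rcases h2 with rfl | h2
    · exact n1 rfl
    · exact n2 h2.symm
    · exact n2 h1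
    · exact n3 _ h1 h2.symm

theorem arith {x y k : ℕ} (h0 : 21 ≤ k + y) (h1 : k * (y + 1) ≤ x * (k + y)) (h2 : y + 1 < k)
    (h3 : k ≤ y * y) : 2 * (k + y + 1) ≤ 3 * x ^ 2 := by
  have key : k + y ≤ x * x + x := by
    by_contra h
    push Not at h
    have : x < y := by
      by_contra h'
      push Not at h'
      have := Nat.mul_le_mul h' h'
      omega
    obtain ⟨j, rfl⟩ := Nat.exists_eq_add_of_le this.le
    have := Nat.mul_le_mul_right j h2.le
    nlinarith
  have : 4 ≤ x := by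
    by_contra h
    push Not at h
    interval_cases x <;> omega
  nlinarith

theorem avg (h : ∀ a b, a ≠ b → (D G a b).card ≤ x) (a : α) :
    ∃ β, ∑ a, (fl fun b => ¬ E G β a b).card ≤ (Fintype.card α - 1) * x := by
  classical
  obtain ⟨β, -, hβ⟩ := exists_le_of_sum_le (s := univ) ⟨a, mem_univ a⟩
    (f := fun β => ∑ a, (fl fun b => ¬ E G β a b).card)
    (g := fun _ => (Fintype.card α - 1) * x) (by
      rw [sum_comm]
      refine sum_le_sum fun a _ => ?_
      have : ∑ β, (fl fun b => ¬ E G β a b).card = ∑ b, (D G a b).card := by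
        simp only [D, fl, card_filter]
        exact sum_comm
      rw [this, ← sum_erase univ (a := a), ← card_univ, ← card_erase_of_mem (mem_univ a)]
      · exact sum_le_card_nsmul _ _ _ fun b hb => h _ _ (ne_of_mem_erase hb).symm
      · exact card_eq_zero.2 (eq_empty_of_forall_notMem fun c hc => mem_D.1 hc E.rfl))
  exact ⟨β, hβ⟩

theorem fl_dis (P : α → Prop) : Disjoint (fl P) (fl fun c => ¬ P c) :=
  disjoint_left.2 fun c h k => (mem_fl (P := fun c => ¬ P c)).1 k (mem_fl.1 h)

theorem fl_un (P : α → Prop) : fl P ∪ (fl fun c => ¬ P c) = univ := by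
  ext c
  simp [em]

theorem fl_not (P : α → Prop) : (fl P).card + (fl fun c => ¬ P c).card = Fintype.card α := by
  rw [← card_union_of_disjoint (fl_dis P), fl_un, card_univ]

theorem val2 (h2 : ¬ IsMultiplyPretransitive G α 2) {β : α} (hc : c ≠ β) :
    (fl (E G β c)).card ≤ (Fintype.card α - 1 - (fl (E G β c)).card) *
      (Fintype.card α - 1 - (fl (E G β c)).card) := by
  set Y : α → α → Prop := fun a b => a ≠ b ∧ ¬ ∃ g ∈ G, g β = a ∧ g c = b
  have iv : Iv G Y := fun g hg a b h => ⟨g.injective.ne h.1, fun ⟨f, hf, h1, h2⟩ =>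
    h.2 ⟨g⁻¹ * f, mul_mem (inv_mem hg) hf, by simp [h1], by simp [h2]⟩⟩
  obtain ⟨a, b, hab⟩ : ∃ a b, Y a b := by
    by_contra h
    refine h2 (is_two_pretransitive_iff.2 fun {a b d e} h1 h3 => ?_)
    obtain ⟨f, hf, rfl, rfl⟩ := not_not.1 fun k => h ⟨a, b, h1, k⟩
    obtain ⟨g, hg, rfl, rfl⟩ := not_not.1 fun k => h ⟨d, e, h3, k⟩
    exact ⟨⟨g * f⁻¹, mul_mem hg (inv_mem hf)⟩, by simp [Subgroup.smul_def],
      by simp [Subgroup.smul_def]⟩
  have hy : (fl (Y β)).card ≤ Fintype.card α - 1 - (fl (E G β c)).card := by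
    have h1 := fl_not (E G β c)
    have h3 : (insert β (fl (Y β))).card ≤ (fl fun d => ¬ E G β c d).card := by
      refine card_le_card fun d hd => mem_fl.2 ?_
      rcases mem_insert.1 hd with rfl | hd
      · exact fun k => hc k.symm.left.symm
      · exact (mem_fl.1 hd).2
    rw [card_insert_of_notMem fun k => (mem_fl.1 k).1 rfl] at h3
    omega
  obtain ⟨e, f, h1, h3, h4⟩ := iv.cl hab hab.1 (P := fun d => d = β ∨ Y β d) (c := β) (d := c)
    (.inl rfl) (not_or.2 ⟨hc, fun k => k.2 E.rfl⟩)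
  have h5 : E G β c f := by
    by_contra k
    exact h4 (by_cases .inl fun k' => .inr ⟨Ne.symm k', k⟩)
  have h6 : Y β e := h1.resolve_left fun k => h4 (.inr (k ▸ h3))
  refine (card_cover (t := fl (Y β)) (f := fun b => fl (Y b)) (fun d hd => ?_)
    fun b _ => (iv.val b β).trans hy).trans (Nat.mul_le_mul_right _ hy)
  obtain ⟨g, hg, k1, rfl⟩ := h5.symm.trans (mem_fl.1 hd)
  exact ⟨g e, mem_fl.2 (k1 ▸ iv g hg _ _ h6), mem_fl.2 (iv g hg _ _ h3)⟩

theorem step3 (hN : 22 ≤ Fintype.card α) (h2 : ¬ IsMultiplyPretransitive G α 2)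
    (h : ∀ a b, a ≠ b → (D G a b).card ≤ 2 * x) (a : α) : 2 * Fintype.card α ≤ 3 * x ^ 2 := by
  obtain ⟨β, hβ⟩ := avg h a
  obtain ⟨c, -, hc⟩ := exists_max_image univ (fun c => (fl (E G β c)).card) ⟨a, mem_univ a⟩
  have hk := fl_not (E G β c)
  obtain ⟨M, hM⟩ : ∃ M, Fintype.card α = M + 1 := ⟨Fintype.card α - 1, by omega⟩
  by_cases h1 : 2 * (fl (E G β c)).card ≤ Fintype.card α
  · have := (card_nsmul_le_sum univ _ (fl fun d => ¬ E G β c d).card fun d _ => by
      have := hc d (mem_univ d)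
      have := fl_not (E G β d)
      omega).trans hβ
    rw [card_univ, smul_eq_mul, hM, Nat.add_sub_cancel] at this
    have h3 : M + 1 ≤ 2 * (fl fun d => ¬ E G β c d).card := by omega
    have h4 : M < 4 * x := by
      by_contra h4
      nlinarith
    rw [hM]
    nlinarith
  · have hne : c ≠ β := by
      rintro rfl
      have : (fl (E G c c)).card ≤ 1 :=
        card_le_one.2 fun d hd e he => (mem_fl.1 hd).left.symm.trans (mem_fl.1 he).left
      omega
    have h3 := val2 h2 hne
    have h4 : 1 ≤ (fl fun d => ¬ E G β c d).card :=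
      card_pos.2 ⟨β, mem_fl.2 fun k => hne k.symm.left.symm⟩
    rw [← fl_un (E G β c), sum_union (fl_dis _)] at hβ
    have h6 := card_nsmul_le_sum (fl (E G β c)) (fun a => (fl fun b => ¬ E G β a b).card) _
      fun d hd => card_le_card (s := fl fun d => ¬ E G β c d) fun e he =>
        mem_fl.2 fun k => mem_fl.1 he ((mem_fl.1 hd).trans k)
    have h7 := card_nsmul_le_sum (fl fun d => ¬ E G β c d)
      (fun a => (fl fun b => ¬ E G β a b).card) _
      fun d hd => card_le_card (s := fl (E G β c)) fun e he =>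
        mem_fl.2 fun k => mem_fl.1 hd ((mem_fl.1 he).trans k.symm)
    rw [smul_eq_mul] at h6 h7
    generalize (fl (E G β c)).card = k at *
    obtain ⟨y, hy⟩ : ∃ y, (fl fun d => ¬ E G β c d).card = y + 1 := ⟨_, (Nat.sub_add_cancel h4).symm⟩
    rw [hy] at hk h6 h7
    rw [← hk] at hβ h3 hN h1 ⊢
    rw [show k + (y + 1) - 1 - k = y by omega] at h3
    rw [show k + (y + 1) - 1 = k + y by omega] at hβ
    exact arith (by omega) (by nlinarith) (by omega) h3

theorem jobUni : Uni.{u} := by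
  intro α _ _ G hN hp h2 a b hab
  obtain ⟨⟨c, d⟩, hcd, hm⟩ := exists_min_image univ.offDiag (fun p : α × α => (D G p.1 p.2).card)
    ⟨(a, b), by simpa using hab⟩
  have hX : X G (D G c d).card c d := ⟨by simpa using hcd, rfl⟩
  have key : 2 * Fintype.card α ≤ 3 * (D G c d).card ^ 2 := by
    by_contra h
    refine h (step3 hN h2 (fun e f hef => ?_) a)
    by_cases k : f = e ∨ X G (D G c d).card e f ∨
        ∃ p, X G (D G c d).card e p ∧ X G (D G c d).card p f
    · rcases k with rfl | k | ⟨p, k1, k2⟩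
      · exact absurd rfl hef
      · rw [k.2]
        omega
      · have := D_tri (G := G) e p f
        rw [k1.2, k2.2] at this
        omega
    · exact absurd (step2 hX k) h
  refine ⟨D G a b, mem_D.2 fun k => hab k.left, mem_D.2 fun k => hab k.symm.left.symm,
    key.trans (Nat.mul_le_mul_left _ (Nat.pow_le_pow_left (hm (a, b) (by simpa using hab)) _)),
    fun e he g hg h1 h3 => mem_D.1 he ⟨g, hg, h1, h3⟩⟩

end H73.PsUni
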