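/- C7 tower, slot SLG: the generic hypotheses for linear factors. -/
import Cfsg.Agent.H60.WrKit

set_option autoImplicit false

namespace H73.WrL
open Cfsg Cfsg.Geo Matrix H19 H60.Wr Module
open scoped MatrixGroups

universe u

variable {F : Type u} [Field F] {k t : ℕ} {M : Subgroup (GG k t F)}

theorem exists_dot_two (hk : 3 ≤ k) (x y : Fin k → F) : ∃ φ, φ ≠ 0 ∧ φ ⬝ᵥ x = 0 ∧ φ ⬝ᵥ y = 0 := by
  classical
  obtain ⟨z, hz⟩ : ∃ z, z ∉ Submodule.span F ({x, y} : Set (Fin k → F)) := by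
    by_contra! h
    have h1 := finrank_span_finset_le_card (R := F) ({x, y} : Finset (Fin k → F))
    have h2 : Submodule.span F ({x, y} : Set (Fin k → F)) = ⊤ := eq_top_iff.2 fun z _ => h z
    rw [Set.finrank, Finset.coe_pair, h2, finrank_top, finrank_fintype_fun_eq_card,
      Fintype.card_fin] at h1
    have := Finset.card_le_two (a := x) (b := y)
    omega
  obtain ⟨φ, h1, h2⟩ := exists_dot_of_notMem hz
  exact ⟨φ, by rintro rfl; simp at h1, h2 x (Submodule.subset_span (by simp)),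
    h2 y (Submodule.subset_span (by simp))⟩

theorem tvs (H : SLC M) {w φ : Fin k → F} (h : φ ⬝ᵥ w = 0) : In (Gam M) (1 + ro w φ) :=
  ⟨un _ (by rw [ro_mul_ro, h, zero_smul]), H.sl _ (by
    rw [un_val, ro, vecMulVec_eq Unit, det_one_add_replicateCol_mul_replicateRow, h, add_zero]),
    rfl⟩

theorem eigen {X : Mk k F} {v φ : Fin k → F} (hφ : φ ≠ 0) (h : X * ro v φ = ro v φ * X) :
    X *ᵥ v ∈ F ∙ v := by
  obtain ⟨z, hz⟩ := exists_dot_one' hφ
  have := congrArg (· *ᵥ z) h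
  simp only [← mulVec_mulVec, ro_mulVec, hz, one_smul] at this
  rw [this]
  exact Submodule.smul_mem _ _ (Submodule.mem_span_singleton_self v)

theorem trans (H : SLC M) {w w' : Fin k → F} (hw : w ≠ 0) (hw' : w' ≠ 0) :
    ∃ h ∈ Gam M, ∃ c : F, (h : Mk k F) *ᵥ w = c • w' := by
  by_cases h : w ∈ F ∙ w'
  · obtain ⟨c, hc⟩ := Submodule.mem_span_singleton.1 h
    exact ⟨1, one_mem _, c, by simp [hc]⟩
  · obtain ⟨ψ, h1, h2⟩ := exists_dot_of_notMem (x := w') (J := F ∙ (w' - w)) fun h3 => h (by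
      obtain ⟨c, hc⟩ := Submodule.mem_span_singleton.1 h3
      have hc0 : c ≠ 0 := by rintro rfl; exact hw' (by simpa using hc.symm)
      refine Submodule.mem_span_singleton.2 ⟨1 - c⁻¹, ?_⟩
      rw [sub_smul, one_smul, sub_eq_iff_eq_add, ← sub_eq_iff_eq_add', eq_inv_smul_iff₀ hc0, hc])
    have h3 := h2 _ (Submodule.mem_span_singleton_self _)
    obtain ⟨s, hs, e⟩ := tvs H h3
    rw [dotProduct_sub, h1, sub_eq_zero] at h3
    exact ⟨s, hs, 1, by rw [e, add_mulVec, one_mulVec, ro_mulVec, ← h3]; simp⟩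

theorem ql (H : SLC M) (hQ : QQ M (RT k F)) (i : Fin t) {w : Fin k → F} (hw : w ≠ 0) :
    QL M i w ⊤ := by
  intro m hm h1 h2 _
  obtain ⟨n, hn⟩ : ∃ n, (m : EE k t F) = 1 + n := ⟨m - 1, by simp⟩
  obtain ⟨ω, hω⟩ := exists_dot_one hw
  have a1 : ∀ φ, n * em i (ro w φ) = 0 := fun φ => by
    have := (fix_iff (X := (m : EE k t F)) (Y := 1)).1 (fun y hy => by rw [h1 y hy, one_mulVec]) φ
    rwa [hn, add_mul, add_eq_left] at this
  have a2 : ∀ v, n *ᵥ v ∈ LS i (F ∙ w) := fun v => by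
    have := h2 v (by simp)
    rwa [hn, add_mulVec, one_mulVec, add_sub_cancel_left] at this
  have a3 : em i (ro w ω) * n = n := ext_mulVec fun v => by
    obtain ⟨y, hy⟩ := mem_rg.1 (rg_em_ro i (φ := ω) (by rintro rfl; simp at hω) w ▸ a2 v)
    rw [← mulVec_mulVec, ← hy, mulVec_mulVec, ← map_mul, ro_mul_ro, hω, one_smul]
  have a4 : ∀ x ψ, ψ ⬝ᵥ w = 0 → em i (ro x ψ) * n = 0 := fun x ψ h => by
    rw [← a3, ← mul_assoc, ← map_mul, ro_mul_ro, h, zero_smul, map_zero, zero_mul]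
  have a5 : ∀ u, Sc (ct i ω u n) := fun u => by
    by_cases hu : u ∈ F ∙ w
    · obtain ⟨c, rfl⟩ := Submodule.mem_span_singleton.1 hu
      rw [ct_smul_right]
      refine Sc.smul ⟨0, ?_⟩ c
      simp only [ct, mul_assoc, a1, mul_zero, Finset.sum_const_zero, zero_smul]
    · obtain ⟨ψ, h3, h4, h5⟩ := exists_dot_two H.k3 w u
      refine hQ i _ ⟨w, ψ, hw, h3, h4, rfl⟩ _ (ct_inC _ _ _ _) ?_
      have := (hn ▸ In.coe.2 hm).comm ((tvs H h5).em_one_add i)
        (by rw [← a3, mul_assoc, ← mul_assoc n, a1, zero_mul, mul_zero])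
        (by rw [← map_mul, ro_mul_ro, h5, zero_smul, map_zero])
        (by rw [mul_assoc, a4 u ψ h4, mul_zero]) (by rw [a4 u ψ h4, zero_mul])
      rwa [a4 u ψ h4, sub_zero, ← a3, ct_spec] at this
  rw [hn]
  refine (Sc.one.inA i).add (InA.of_ct fun φ x => ?_)
  rw [← a3, ct_em_left, ro, vecMul_vecMulVec, ct_smul_left]
  exact (a5 x).smul _

theorem jobSLG : JobSLG.{u} := by
  intro F _ _ k t M H hQ
  have k3 := H.k3
  obtain ⟨a, b, c, hab, hac, hbc⟩ :=
    (Fintype.two_lt_card_iff (α := Fin k)).1 (by rw [Fintype.card_fin]; omega)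
  have h0 : (Pi.single b 1 : Fin k → F) ⬝ᵥ Pi.single a 1 = 0 := by simp [hab.symm]
  have ha : (Pi.single a 1 : Fin k → F) ≠ 0 := by simp
  have hb : (Pi.single b 1 : Fin k → F) ≠ 0 := by simp
  refine ⟨{w | w ≠ 0}, ro (Pi.single a 1) (Pi.single b 1), fun _ => ⊤,
    ⟨fun _ h => h, fun _ h _ h' => trans H h h', fun _ _ _ _ _ _ _ h _ => h,
      fun _ _ _ _ _ h _ => h, ?_, by rw [ro_mul_ro, h0, zero_smul], ro_ne_zero ha hb, tvs H h0,
      ⟨Pi.single c 1, Pi.single c 1, by simp, ?_, ?_⟩, ?_, ?_, fun _ _ => trivial,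
      fun _ _ _ _ _ _ _ => by simp, ?_⟩,
    fun i w hw => ql H hQ i hw, fun h2 => hr_ro h2 h0, fun _ => ⟨⟨_, _, rfl⟩,
      fun _ _ _ h => h.1, fun _ => Or.inr fun _ _ => tvs H, ?_⟩⟩
  · intro w _ 𝔅 hs _ X hX
    refine sc_of_eigen fun v => ?_
    obtain ⟨φ, h1, h2, h3⟩ := exists_dot_two k3 w v
    obtain ⟨s, h4, e⟩ := tvs H h3
    have := 𝔅.sub_mem (hs s h4 ⟨1, by rw [e, add_mulVec, ro_mulVec, h2]; simp⟩) 𝔅.one_mem
    rw [e, add_sub_cancel_left] at this
    exact eigen h1 (hX _ this)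
  · rw [ro_mulVec]; simp [hbc]
  · rw [ro, vecMul_vecMulVec]; simp [hac.symm]
  · intro 𝔅 h
    obtain ⟨s, h4, e⟩ := tvs H h0
    have := 𝔅.sub_mem (h s h4 (by rw [e, add_mul, ro_mul_ro, h0]; simp)) 𝔅.one_mem
    rw [e, add_sub_cancel_left] at this
    exact ⟨_, ha, _, hb, this⟩
  · intro X hX
    refine sc_of_eigen fun v => ?_
    by_cases hv : v = 0
    · simp [hv]
    obtain ⟨s, hs, r, e⟩ := trans H ha hv
    have h1 := hX s hs
    rw [cj_ro, e] at h1
    have hr : r ≠ 0 := by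
      rintro rfl
      exact ha (toLin'_inj s (by simpa using e))
    have h2 := eigen (fun h => hb (by
      have := congrArg (· ᵥ* (s : Mk k F)) h
      simp only [vecMul_vecMul, Units.inv_mul, vecMul_one, zero_vecMul] at this
      exact this)) h1
    rwa [mulVec_smul, Submodule.smul_mem_iff _ hr, Submodule.span_singleton_smul_eq hr.isUnit] at h2
  · intro w _ ψ h
    obtain ⟨s, h4, e⟩ := tvs H h
    exact ⟨s, h4, fun v _ => by rw [e, add_mulVec, one_mulVec, ro_mulVec]⟩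
  · by_cases h : ∀ c : F, c = 0 ∨ c = 1
    · exact Or.inr (Or.inl ⟨h, fun _ _ => tvs H⟩)
    · push Not at h
      obtain ⟨c, h1, h2⟩ := h
      exact Or.inl ⟨c, h1, h2, fun i w φ hr => tvs H (by rw [smul_dotProduct, hr.2.2.1, smul_zero])⟩

end H73.WrL
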